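import Mathlib

/-! Pieces `D` (Dirichlet) and `P` (characteristic `p`) of S4294. -/

set_option autoImplicit false

namespace H16.AmD

theorem pD (l : ℕ) (hl : l.Prime) (h2 : l ≠ 2) (h5 : l ≠ 5) :
    ∃ p : ℕ, p.Prime ∧ p % 4 = 3 ∧ IsSquare (-5 : ZMod p) ∧ l ∣ p + 1 := by
  have c : Nat.Coprime 20 l := by
    rw [show 20 = 2 ^ 2 * 5 from rfl]
    exact Nat.Coprime.mul_left (((Nat.coprime_primes Nat.prime_two hl).2 h2.symm).pow_left _)
      ((Nat.coprime_primes Nat.prime_five hl).2 h5.symm)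
  obtain ⟨a, a1, a2⟩ := Nat.chineseRemainder c 3 (l - 1)
  have l1 := hl.one_lt
  have ca : Nat.Coprime a (20 * l) := by
    refine Nat.Coprime.mul_right ?_ ?_
    · rw [Nat.Coprime, a1.gcd_eq]; rfl
    · rw [Nat.Coprime, a2.gcd_eq]
      exact (Nat.coprime_self_sub_left (by omega)).2 (by simp)
  obtain ⟨p, -, hp, e⟩ := Nat.forall_exists_prime_gt_and_modEq 0 (q := 20 * l) (by omega) ca
  have e1 : p % 20 = 3 := (e.of_mul_right l).trans a1
  have e2 : p ≡ l - 1 [MOD l] := (e.of_mul_left 20).trans a2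
  have := Fact.mk hp
  have : Fact (Nat.Prime 5) := ⟨Nat.prime_five⟩
  have p4 : p % 4 = 3 := by omega
  refine ⟨p, hp, p4, ?_, ?_⟩
  · have p2 : p ≠ 2 := by omega
    have h1 : legendreSym p (-1) = -1 := by
      rw [legendreSym.at_neg_one p2, ZMod.χ₄_nat_three_mod_four p4]
    have h3 : legendreSym p 5 = -1 := by
      have := legendreSym.quadratic_reciprocity_one_mod_four (p := 5) (q := p) (by norm_num) p2
      rw [show ((5 : ℕ) : ℤ) = 5 from rfl] at this
      rw [this, legendreSym.mod, show (p : ℤ) % ((5 : ℕ) : ℤ) = 3 by omega]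
      norm_num
    have h4 : legendreSym p (-5) = 1 := by
      rw [show (-5 : ℤ) = -1 * 5 from rfl, legendreSym.mul, h1, h3]; rfl
    have h0 : ((-5 : ℤ) : ZMod p) ≠ 0 := fun h => by
      rw [(legendreSym.eq_zero_iff p _).2 h] at h4
      exact zero_ne_one h4
    simpa using (legendreSym.eq_one_iff p h0).1 h4
  · have := e2.add_right 1
    rw [show l - 1 + 1 = l by omega] at this
    exact (Nat.modEq_zero_iff_dvd).1 (this.trans (Nat.modEq_zero_iff_dvd.2 dvd_rfl))

theorem pP {D : Type*} [DivisionRing D] (H : Subgroup Dˣ) [Finite H] (p : ℕ) [Fact p.Prime] [CharP D p]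
    (a b : H) : a * b = b * a := by
  let : Algebra (ZMod p) D := ZMod.algebra D p
  let f : MonoidAlgebra (ZMod p) H →ₐ[ZMod p] D :=
    MonoidAlgebra.lift (ZMod p) D H ((Units.coeHom D).comp H.subtype)
  have : Finite (MonoidAlgebra (ZMod p) H) := Module.finite_of_finite (ZMod p)
  have : Finite f.range := Finite.of_surjective f.rangeRestrict f.rangeRestrict_surjective
  have h := (Finite.isDomain_to_isField f.range).mul_comm
    ⟨_, MonoidAlgebra.of _ _ a, rfl⟩ ⟨_, MonoidAlgebra.of _ _ b, rfl⟩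
  refine Subtype.ext (Units.ext ?_)
  simpa [f] using congrArg Subtype.val h

end H16.AmD
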