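import Cfsg.Agent.H16.FC
import Cfsg.Agent.H21.FrobB
import Cfsg.Agent.H22.Fcore
import Cfsg.Agent.H17.Std
import Cfsg.Agent.H1.Harv3

/-! CN-groups: `CN.step` (commuting lemma), maximal nilpotent subgroups (`CN.pcore_eq`, `CN.hall`, `CN.ti`, `CN.cent_le`),
quotients by solvable normal subgroups (`CN.quo`), `CN.frob` (normal Sylow subgroup), `CN.solv` (solvable case). -/

set_option autoImplicit false
set_option linter.unusedSectionVars false

namespace H16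
open H18 H22 H1 Subgroup Cfsg
open scoped commutatorElement

universe u

/-- centralizers of non-identity elements are nilpotent -/
def CN (G : Type*) [Group G] : Prop := ∀ g : G, g ≠ 1 → Nil C1(g)

variable {G : Type u} [Group G] [Finite G] {A B D E H K L P R Y : Subgroup G} {x y z g t : G} {p : ℕ} {π : Set ℕ}

theorem odd_of_two' (h : PiGrp {2}ᶜ A) : Odd (Nat.card A) :=
  Nat.not_even_iff_odd.1 fun e => (piNat_compl_iff Nat.prime_two).1 h e.two_dvd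

theorem inv_cent (hn : R ≤ N(K)) (hK : K ≠ ⊥) (h : Semireg K R) (ht : t ∈ R) (t2 : orderOf t = 2) :
    R ≤ C1(t) ∧ ∀ s ∈ R, orderOf s = 2 → s = t := by
  have fc : FC R := fc_of_semireg R.subtype (fun g => hn g.2) hK fun g e => h g g.2 (by simpa using e)
  have k : ∀ s : G, orderOf s = 2 → s * s = 1 := fun s e => by rw [← sq, ← e, pow_orderOf_eq_one]
  have k' : ∀ s : G, orderOf s = 2 → s ≠ 1 := fun s e e' => by simp [e'] at e
  exact ⟨fun g hg => mem_C1.2 (congrArg Subtype.val (fc.invol_comm (z := ⟨t, ht⟩) (Subtype.ext (k t t2)) ⟨g, hg⟩)),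
    fun s hs s2 => congrArg Subtype.val (fc.invol_eq (z := ⟨s, hs⟩) (w := ⟨t, ht⟩) (by simpa using k' s s2)
      (Subtype.ext (k s s2)) (by simpa using k' t t2) (Subtype.ext (k t t2)))⟩

theorem Z_ne_bot_semireg (hn : R ≤ N(K)) (hK : K ≠ ⊥) (hR : R ≠ ⊥) (h : Semireg K R) : Z(R) ≠ ⊥ := by
  have hp := Nat.minFac_prime (one_lt_card hR).ne'
  by_cases ho : Odd (Nat.card R)
  · obtain ⟨X, x1, x2⟩ := cauchy_sub hp (Nat.minFac_dvd _)
    have n := prime_odd_regular_normal (x2 ▸ hp) ho x1 hn hK h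
    have : C(X).relIndex R = 1 := Nat.eq_one_iff_not_exists_prime_dvd.2 fun q hq hd => by
      have a := Nat.minFac_le_of_dvd hq.two_le (hd.trans relIndex_dvd)
      have b := Nat.le_of_dvd (by have := hp.two_le; omega) (hd.trans (prime_relIndex_C_dvd hp x2 n))
      have := hp.two_le
      omega
    exact fun e => ne_bot_of_prime (x2 ▸ hp) (eq_bot_iff.2 (e ▸ le_inf x1 (cent_symm (relIndex_eq_one_iff.1 this))))
  · obtain ⟨t, t1, t2⟩ := cauchy Nat.prime_two (even_iff_two_dvd.1 (Nat.not_odd_iff_even.1 ho))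
    exact ne_bot_of_mem (x := t) ⟨t1, le_C1_iff.1 (inv_cent hn hK h t1 t2).1⟩ fun e => by simp [e] at t2

namespace CN
variable (h : CN G)
include h

theorem step (nA : Nil A) (hA : PiGrp π A) (hx : x ∈ A) (x1 : x ≠ 1) (hY : PiGrp πᶜ Y) (e : Y ≤ C1(x)) : A ≤ C(Y) := by
  obtain ⟨z, hz, z1⟩ := exists_mem_ne_one' (nA.Z_ne_bot (ne_bot_of_mem hx x1))
  exact (h z z1).cent_pi (le_C1_iff.2 hz.2) (zpowers_le_C_iff.1 ((h x x1).cent_pi
    (zpowers_le.2 (mem_C1_comm.1 (le_C1_iff.2 hz.2 hx))) e (hA.elt hz.1).zpowers hY)) hA hY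

theorem nil_of_semireg (hn : R ≤ N(K)) (hK : K ≠ ⊥) (hr : Semireg K R) : Nil R := by
  by_cases e : R = ⊥
  · exact e ▸ nil_bot
  obtain ⟨z, hz, z1⟩ := exists_mem_ne_one' (Z_ne_bot_semireg hn hK e hr)
  exact (h z z1).of_le (le_C1_iff.2 hz.2)

section Max
variable (hH : Nil H) (m : ∀ L : Subgroup G, Nil L → H ≤ L → L = H)
include hH m

theorem pcore_eq (hx : x ∈ H) (x1 : x ≠ 1) (xp : PiElt π x) : O[πᶜ](C1(x)) = O[πᶜ](H) := by
  have h1 : O[πᶜ](H) ≤ O[πᶜ](C1(x)) := (h x x1).le_pcore (zpowers_le_C_iff.1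
    (hH.cent_pi (zpowers_le.2 hx) pcore_le xp.zpowers pcore_pi)) pcore_pi
  have h2 : O[π](H) ≤ C(O[πᶜ](C1(x))) := h.step (hH.of_le pcore_le) pcore_pi
    (zpowers_le.1 (hH.le_pcore (zpowers_le.2 hx) xp.zpowers)) x1 pcore_pi pcore_le
  refine le_antisymm (hH.le_pcore (le_sup_right.trans (m _ ((hH.of_le pcore_le).sup_cent ((h x x1).of_le pcore_le) h2)
    ((hH.pcore_sup (π := π)).ge.trans (sup_le_sup_left h1 _))).le) pcore_pi) h1

theorem hall : Hall (primes (Nat.card H)) H ⊤ := by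
  refine hall_of_sylows le_top piNat_primes fun p hp e _ => ?_
  obtain ⟨P, hP, h1⟩ := exists_sylow_le hp (pcore_pi (π := {p}) (H := H)) le_top
  obtain ⟨x, hx, x1⟩ := exists_mem_ne_one' (hH.pcore_hall.ne_bot_p hp (mem_primes.1 e).2)
  exact ⟨P, hP, le_sup_left.trans (m _ (hP.pi.nil.sup_cent (hH.of_le pcore_le) (h.step hP.pi.nil hP.pi (h1 hx) x1
    pcore_pi (zpowers_le_C_iff.1 ((zpowers_le.2 hx).trans pcore_cent_compl))))
    ((hH.pcore_sup (π := {p})).ge.trans (sup_le_sup_right h1 _))).le⟩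

theorem ti (hK : Nil K) (m' : ∀ L : Subgroup G, Nil L → K ≤ L → L = K) (hp : ∀ p, p.Prime → ¬ PiGrp {p} H)
    (ne : K ≠ H) : H ⊓ K = ⊥ := by
  by_contra c
  obtain ⟨p, hp', hd⟩ := H18.exists_prime_dvd_card c
  obtain ⟨x, hx, o⟩ := cauchy hp' hd
  have x1 : x ≠ 1 := fun e => hp'.one_lt.ne' (by rw [← o, e, orderOf_one])
  have xp := piElt_of_pow_eq_one hp' (o ▸ pow_orderOf_eq_one x)
  have e1 := (h.pcore_eq hH m hx.1 x1 xp).symm.trans (h.pcore_eq hK m' hx.2 x1 xp)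
  obtain ⟨y, hy, y1⟩ := exists_mem_ne_one' (H := O[{p}ᶜ](H)) fun e => hp p hp' (by
    rw [← hH.pcore_sup (π := {p}), e, sup_bot_eq]; exact pcore_pi)
  have e2 := (h.pcore_eq hH m (pcore_le hy) y1 (pcore_pi.elt hy)).symm.trans
    (h.pcore_eq hK m' (pcore_le (e1 ▸ hy)) y1 (pcore_pi.elt hy))
  exact ne (by rw [← hH.pcore_sup (π := {p}ᶜ), ← hK.pcore_sup (π := {p}ᶜ), e1, e2])

theorem cent_le (ti : ∀ g, cj g H ≠ H → H ⊓ cj g H = ⊥) (hx : x ∈ H) (x1 : x ≠ 1) : C1(x) ≤ H := by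
  have n : C1(x) ≤ N(H) := fun c hc => mem_N_iff_cj.2 (by_contra fun e => x1 (mem_bot.1 ((ti c e).le
    ⟨hx, conj_eq_self_of_C1 hc ▸ conj_mem_cj hx⟩)))
  rw [← (h x x1).pcore_sup (π := primes (Nat.card H)), h.pcore_eq hH m hx x1 (PiGrp.elt piNat_primes hx)]
  exact sup_le (((h.hall hH m).of_le le_N le_top).le_of_nml le_rfl (pcore_le.trans n) pcore_pi) pcore_le

end Max

theorem mim_p {Q : Type*} [Group Q] [Finite Q] (f : D →* Q) (hD : ∀ g, g ∈ D) (hf : mim f D = ⊤) (hp : p.Prime)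
    (hk : PiGrp {p} (mker f)) : CN Q := fun v v1 => by
  have dD : ∀ {A : Subgroup G}, A ≤ D := fun {_} g _ => hD g
  obtain ⟨w, hw, pw⟩ := exists_prime_pow_elt v1
  have w1 : w ≠ 1 := fun e => pw.one_lt.ne' (by rw [e, orderOf_one])
  refine Nil.of_le (H := C1(w)) ?_ (zpowers_le_C_iff.1 ((zpowers_le.2 hw).trans (zpowers_le_C_iff.2 le_rfl)))
  have wp := piElt_of_pow_eq_one pw (pow_orderOf_eq_one w)
  by_cases e : mker f = ⊥ ∨ orderOf w ≠ p
  · obtain ⟨x, -, -, xp, rfl⟩ := exists_piElt_lift (hf ▸ mem_top w : w ∈ mim f D) wp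
    have k := mim_inf_cent (f := f) (A := zpowers x) (K := D) dD le_rfl ⟨norm_inf (dD.trans le_N)
      (dD.trans nml_mker.norm), ?_, Or.inl cyc_zpowers.solv⟩ (dD.trans le_N)
    · rw [hf, top_inf_eq, mim_zpowers (hD x), C_zpowers, C_zpowers] at k
      exact k ▸ ((h x fun e => w1 (by rw [e, mfun_one])).of_le inf_le_right).mim
    · rcases e with e | e
      · simp [e]
      · exact (xp.zpowers.p'_of_ne e).coprime' hk.inf_right
  push Not at e
  rw [e.2] at wp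
  have l : zpowers w ≤ C1(w) := zpowers_le.2 C1_self
  have nX : mpre f (zpowers w) ⊴ mpre f C1(w) := Nml.mpre ⟨l, cent_norm (cent_symm (zpowers_le_C_iff.2 le_rfl))⟩
  have pX := wp.zpowers.mpre hk
  obtain ⟨P, hP⟩ := exists_sylow hp (mpre f C1(w))
  have XP := hP.nml_le nX pX
  obtain ⟨z, hz, z1⟩ := exists_mem_ne_one' (hP.pi.meet_cent hk (dD.trans nml_mker.norm) e.1)
  rw [← mim_mpre (f := f) (U := C1(w)) (hf ▸ le_top)]
  refine ((h z z1).of_le (le_of_sylows fun q hq _ => ?_)).mim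
  by_cases e' : q = p
  · exact ⟨P, e' ▸ hP, le_C1_iff.2 hz.2⟩
  obtain ⟨S, hS⟩ := exists_sylow hq (mpre f C1(w))
  refine ⟨S, hS, fun y hy => ?_⟩
  have yp := (hS.pi.elt hy).zpowers.p'_of_ne e'
  have n := (zpowers_le.2 (hS.le hy)).trans nX.norm
  have k := mim_inf_cent (f := f) (A := zpowers y) dD dD (cop_pi' (norm_inf n (dD.trans nml_mker.norm)) yp
    hk.inf_right) n
  rw [mim_mpre (hf ▸ le_top), mim_zpowers (hD y), C_zpowers, C_zpowers] at k
  obtain ⟨x, hx, -, e1⟩ := mem_mim.1 (k.ge ⟨mem_zpowers w, mem_C1_comm.1 (mem_mpre.1 (hS.le hy)).2⟩)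
  exact mem_C1_comm.1 (C_zpowers.le (h.step hP.pi.nil hP.pi (XP hx.1) (fun e => w1 (by rw [← e1, e, mfun_one])) yp
    (zpowers_le.2 (mem_C1_comm.1 hx.2)) (XP (mker_le_mpre hz.1))))

theorem map_p {Q : Type*} [Group Q] [Finite Q] (f : G →* Q) (hf : Function.Surjective f) (hp : p.Prime)
    (hk : PiGrp {p} f.ker) : CN Q :=
  h.mim_p (f.comp (⊤ : Subgroup G).subtype) mem_top (top_unique fun y _ => by
    obtain ⟨x, rfl⟩ := hf y
    exact mem_mim.2 ⟨x, mem_top x, mem_top x, mfun_of_mem (mem_top x)⟩) hp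
    (hk.of_le fun x hx => by simpa [mfun_of_mem] using (mem_mker.1 hx).2)

omit h in
theorem quo_aux {Q : Type*} [Group Q] [Finite Q] (n : ℕ) : ∀ {G : Type u} [Group G] [Finite G], Nat.card G = n → CN G →
    ∀ f : G →* Q, Function.Surjective f → Solv f.ker → CN Q := by
  induction n using Nat.strong_induction_on with
  | _ n ih => ?_
  intro G _ _ hn h f hf hs
  by_cases e : f.ker = ⊥
  · exact h.map_p f hf Nat.prime_two (e ▸ PiGrp.bot)
  obtain ⟨p, hp, h1⟩ := hs.exists_pcore_ne_bot e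
  have : O[{p}](f.ker).Normal := nml_top_iff.1 (nml_top_iff.2 inferInstance).pcore
  refine ih _ (hn ▸ H1.card_quotient_lt h1) rfl (h.map_p (QuotientGroup.mk' _) (QuotientGroup.mk'_surjective _) hp
    (by rw [QuotientGroup.ker_mk']; exact pcore_pi)) (QuotientGroup.lift _ f pcore_le)
    (QuotientGroup.lift_surjective_of_surjective _ _ hf _) ?_
  rw [QuotientGroup.ker_lift]
  exact Group.isSolvable_of_surjective (MonoidHom.subgroupMap_surjective _ f.ker)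

theorem quo (H : Subgroup G) [H.Normal] (hs : Solv H) : CN (G ⧸ H) :=
  quo_aux _ rfl h (QuotientGroup.mk' H) (QuotientGroup.mk'_surjective _) (by rwa [QuotientGroup.ker_mk'])

theorem frob (hn : ¬ Nil (⊤ : Subgroup G)) (h1 : MF((⊤ : Subgroup G)) ≠ ⊥) :
    ∃ E, Frob ⊤ MF((⊤ : Subgroup G)) E ∧ Nil E := by
  set K := MF((⊤ : Subgroup G))
  have hK : Hall _ K ⊤ := Fcore_hall
  have nK : K ⊴ ⊤ := Fcore_nml
  obtain ⟨E, hE⟩ := hK.exists_compl nK.norm
  have sd := sd_of_hall hK nK.norm hE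
  have r : Semireg K E := H18.semireg_of_prime fun X hX o => by_contra fun c => by
    obtain ⟨y, rfl⟩ := (cyc_of_prime o).gen
    have hy := hX (mem_zpowers y)
    rw [C_zpowers] at c
    rw [card_zpowers'] at o
    obtain ⟨x, hx, x1⟩ := exists_mem_ne_one' c
    have yp := piElt_of_pow_eq_one o (pow_orderOf_eq_one y)
    have y1 : y ≠ 1 := fun e => o.one_lt.ne' (by rw [e, orderOf_one])
    obtain ⟨Q, hQ, yQ⟩ := exists_sylow_le o yp.zpowers le_top
    have q : orderOf y ∈ (primes (Nat.card K))ᶜ := hE.pi.elt hy _ o dvd_rfl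
    have h2 := h.step Fcore_nil hK.pi hx.1 x1 (hE.pi.elt hy).zpowers (zpowers_le.2 (mem_C1_comm.1 hx.2))
    have h3 := h.step hQ.pi.nil (hQ.pi.of_p q) (yQ (mem_zpowers y)) y1 (by simpa using hK.pi) (h2.trans C_zpowers.le)
    have h4 : C(K) ⊴ ⊤ := ⟨le_top, norm_C nK.norm⟩
    have h5 := ((h x x1).of_le (C_le_C1 hx.1)).hall_eq (hQ.of_le h3 le_top)
    exact y1 (mem_bot.1 (sd.inf.le ⟨le_Fcore_of_sylow hQ (h5 ▸ h4.pcore.norm) (yQ (mem_zpowers y)), hy⟩))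
  exact ⟨E, ⟨sd, h1, fun e => hn (sd.eq_left_iff.2 e ▸ Fcore_nil), r⟩, h.nil_of_semireg sd.norm h1 r⟩

theorem solv (hs : Solv (⊤ : Subgroup G)) (hn : ¬ Nil (⊤ : Subgroup G)) :
    (∃ K E : Subgroup G, Frob ⊤ K E ∧ Nil E) ∨ ∃ p, p.Prime ∧ IsThreeStepGroup p G := by
  refine (em' (MF((⊤ : Subgroup G)) = ⊥)).imp (fun e => ⟨_, h.frob hn e⟩) fun h0 => ?_
  obtain ⟨p, hp, H1⟩ := hs.exists_pcore_ne_bot fun e => hn (e ▸ nil_bot)
  refine ⟨p, hp, ?_⟩
  rw [IsThreeStepGroup, pCore_eq hp]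
  set H := O[{p}]((⊤ : Subgroup G))
  have pH : PiGrp {p} H := pcore_pi
  have nH : H ⊴ ⊤ := pcore_nml
  have n : ∀ g, g ∈ N(H) := fun g => nH.norm (mem_top g)
  have dH : ∀ {A : Subgroup G}, A ≤ N(H) := fun {_} g _ => n g
  obtain ⟨P, hP⟩ := exists_sylow hp (⊤ : Subgroup G)
  have nP : ¬ ⊤ ≤ N(P) := fun e => H1 (le_bot_iff.1 ((hP.pcore_le.trans (le_Fcore_of_sylow hP e)).trans h0.le))
  have h1 : O[{p}ᶜ]((⊤ : Subgroup G)) = ⊥ := by
    by_contra c
    obtain ⟨x, hx, x1⟩ := exists_mem_ne_one' H1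
    obtain ⟨y, hy, y1⟩ := exists_mem_ne_one' c
    have h2 := h.step hP.pi.nil hP.pi (hP.pcore_le hx) x1 pcore_pi
      (zpowers_le_C_iff.1 ((zpowers_le.2 hx).trans pcore_cent_compl))
    exact nP (((h y y1).of_le (C_le_C1 hy)).norm_hall (hP.of_le h2 le_top) (norm_C pcore_nml.norm))
  have r : ∀ Y : Subgroup G, PiGrp {p}ᶜ Y → Semireg H Y := fun Y hY y hy y1 => by_contra fun c => by
    obtain ⟨x, hx, x1⟩ := exists_mem_ne_one' c
    exact y1 ((pH.elt (cent_sub_pcore hs h1 ⟨mem_top y, zpowers_le.1 (cent_symm (h.step pH.nil pH hx.1 x1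
      (hY.elt hy).zpowers (zpowers_le.2 (mem_C1_comm.1 hx.2))))⟩)).eq_one' (hY.elt hy))
  have h' : CN (Coset H) := h.mim_p (coset H) n quo_N hp (by rwa [mker_coset])
  have nn : ¬ Nil (⊤ ⫽ H) := fun c => nP (norm_of_quo_norm dH ⟨hP.pcore_le, dH⟩ (c.sylow_norm hp (hP.mim dH)))
  obtain ⟨E, hE⟩ := PiSep.hall_exists (π := {p}ᶜ) (piSep_of_solv hs)
  have nE := h.nil_of_semireg dH H1 (r E hE.pi)
  set U := O[{p}ᶜ](⊤ ⫽ H)
  have nU : U ⊴ ⊤ ⫽ H := pcore_nml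
  have cU : ⊤ ⫽ H ⊓ C(U) ≤ U := PiSep.cent_pcore_le (piSep_of_solv hs.mim) (by rw [compl_compl]; exact pcore_quo_pcore)
  have hA := hE.inf_nml (nml_qpre nH nU)
  set A := E ⊓ qpre H U
  have eA : A ⫽ H = U := by simpa using (hA.mim (f := coset H) dH).eq_self (by simpa using pcore_pi)
  have eH : H ⊔ A = qpre H U := by rw [← eA, qpre_quo dH, sup_comm]
  have nilU : Nil U := eA ▸ (nE.of_le inf_le_left).mim
  have o : ∀ s ∈ A, orderOf (cs H s) = orderOf s := fun s hs => orderOf_mfun (n s) (by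
    rw [mker_coset, inf_comm]; exact pH.inf_eq_bot (hA.pi.elt hs).zpowers)
  have oA : Odd (Nat.card A) := by
    by_contra c
    obtain ⟨t, ht, t2⟩ := cauchy Nat.prime_two (even_iff_two_dvd.1 (Nat.not_odd_iff_even.1 c))
    refine nn ((h' (cs H t) fun e => by simpa [e, t2] using o t ht).of_le fun g hg => ?_)
    obtain ⟨s, hs, e⟩ := (mem_quo dH).1 (eA ▸ conj_mem_N (nU.norm hg) (eA ▸ mfun_mem_mim ht))
    rw [(inv_cent dH H1 (r A hA.pi) ht t2).2 s hs (by rw [← o s hs, e, H18.orderOf_conj, o t ht, t2])] at e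
    exact mem_C1.2 (mul_inv_eq_iff_eq_mul.1 e.symm)
  have cy : ∀ Y ≤ E, Odd (Nat.card Y) → Cyc Y := fun Y h1 h2 =>
    (odd_regular_zgrp h2 dH H1 (r Y (hE.pi.of_le h1))).cyc_of_nil (nE.of_le h1)
  have A2 : PiGrp {2}ᶜ A := (piNat_compl_iff Nat.prime_two).2 oA.not_two_dvd_nat
  have EA : E ≤ qpre H U := by
    rw [← mim_le_iff dH]
    refine (le_inf (mim_mono le_top) (eA ▸ mim_cent ?_)).trans cU
    rw [← nE.pcore_sup (π := {2})]
    exact sup_le (nE.cent_pi pcore_le inf_le_left pcore_pi A2) ((cy _ pcore_le (odd_of_two' pcore_pi)).abel.trans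
      (C_anti (nE.le_pcore inf_le_left A2)))
  have hU : Hall {p}ᶜ U (⊤ ⫽ H) := (hE.mim dH).of_ge ((mim_le_iff dH).2 EA) nU.le pcore_pi
  refine ⟨H1, A, fun e => nn (nil_bot.of_le ?_), cy A inf_le_left oA, oA, hA.pi.coprime' (by
    simpa using piNat_pow_self hp 1), eH ▸ nml_top_iff.1 (nml_qpre nH nU), fun e => nn ?_, ?_, r A hA.pi,
    fun x hx a ha a1 e => hx ?_⟩
  · rw [← eA, e, mim_bot] at cU
    simpa using cU
  · rwa [← e, eH, quo_qpre]
  · rw [eH, ← relIndex_top_right]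
    exact PiNat.eq_pow (by simpa using hE.idx_of_le EA) relIndex_ne_zero
  · have c : cs H x ∈ C1(cs H a) := mem_C1.2 (by
      have := (cs_eq_one_iff (n _)).2 e
      rwa [mfun_mul (n _) (n _), mfun_conj (n _) (n _), mfun_inv (n _), mul_inv_eq_one, mul_inv_eq_iff_eq_mul] at this)
    have m : cs H x ∈ ⊤ ⫽ H := mfun_mem_mim (mem_top x)
    refine eH ▸ mem_mpre.2 ⟨n x, mem_of_parts (π := {p}ᶜ) (hU.mem_of_nml nU.norm (piPart_mem m) piElt_piPart)
      (cU ⟨piPart_mem m, zpowers_le.1 (cent_symm (h'.step nilU pcore_pi (eA ▸ mfun_mem_mim ha)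
        (fun e => a1 ?_) piElt_piPart.zpowers (zpowers_le.2 (piPart_mem c))))⟩)⟩
    rw [← orderOf_eq_one_iff, ← o a ha, e, orderOf_one]

end CN

theorem nil_compl (h : Frob L K E) (n : Nil E) : Cyc E ∨ ∃ C Q : Subgroup G, C ⊔ Q = E ∧ C ≤ C(Q) ∧ Cyc C ∧
    Odd (Nat.card C) ∧ ∃ n : ℕ, Nonempty (Q ≃* QuaternionGroup (2 ^ n)) := by
  have o : Odd (Nat.card O[{2}ᶜ](E)) := odd_of_two' pcore_pi
  have c := (odd_regular_zgrp o (pcore_le.trans h.sd.norm) h.ker_ne (h.reg.mono le_rfl pcore_le)).cyc_of_nil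
    (n.of_le pcore_le)
  rcases H17.cyc_or_quat (P := O[{2}](E)) pcore_pi (not_lt.1 fun e => by
    obtain ⟨A, hA⟩ := exists_pelem_of_lt Nat.prime_two e
    exact hA.not_cyc Nat.prime_two le_rfl (cyc_of_semireg_abel hA.abel ((hA.le.trans pcore_le).trans h.sd.norm) h.ker_ne
      (h.reg.mono le_rfl (hA.le.trans pcore_le)))) with e | ⟨k, e⟩
  · refine Or.inl (n.cyc_of_sylow fun p _ _ => ?_)
    by_cases e' : p = 2
    · exact e' ▸ e
    · exact c.of_le (pcore_sub (by simpa using Ne.symm e'))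
  · exact Or.inr ⟨_, _, (sup_comm _ _).trans n.pcore_sup, cent_symm pcore_cent_compl, c, o, _, e⟩

end H16
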