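import Cfsg.Agent.H10.Small

/-! The Isaacs–Passman theorem on half-transitive automorphism groups: `half_block`, `half_trans` (if `A` acts
faithfully on `N` with all orbits on `N#` of the same size and not semiregularly, then `N` is elementary abelian and
`A` acts irreducibly). -/

set_option autoImplicit false
set_option linter.unusedSectionVars false

namespace H16
open Subgroup

variable {G : Type*} [Group G] [Finite G] {N A : Subgroup G} {k : ℕ}

theorem card_inf_mul_relIndex (H K : Subgroup G) : Nat.card ↥(H ⊓ K) * H.relIndex K = Nat.card K := by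
  rw [← inf_relIndex_right, relIndex, ← card_mul_index ((H ⊓ K).subgroupOf K),
    Nat.card_congr (subgroupOfEquivOfLe inf_le_right).toEquiv]

theorem half_block {B : Set G} (hk : ∀ y ∈ B, (centralizer {y}).relIndex A = k)
    (hinv : ∀ y ∈ B, ∀ s ∈ centralizer {y} ⊓ A, ∀ z ∈ B, s * z * s⁻¹ ∈ B) (hc : k.Coprime B.ncard) {y z : G}
    (hy : y ∈ B) (hz : z ∈ B) : centralizer {y} ⊓ A ≤ centralizer {z} := by
  let S : Subgroup G := ⨆ y : B, centralizer {y.1} ⊓ A
  have hSA : S ≤ A := iSup_le fun _ => inf_le_right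
  have h1 : ∀ y ∈ B, centralizer {y} ⊓ A ≤ S := fun y hy => le_iSup (fun y : B => centralizer {y.1} ⊓ A) ⟨y, hy⟩
  have h2 : ∀ y ∈ B, (centralizer {y}).relIndex S * S.relIndex A = k := fun y hy => by
    rw [← hk y hy, ← inf_relIndex_right (centralizer {y}) A, ← relIndex_mul_relIndex _ _ _ (h1 y hy) hSA,
      ← inf_relIndex_right (centralizer {y}) S,
      le_antisymm (inf_le_inf_left _ hSA) (le_inf inf_le_left (h1 y hy))]
  have h3 := H10.dvd_ncard_of_conj S B.toFinite ((centralizer {z}).relIndex S) (fun s hs => by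
    induction hs using iSup_induction' with
    | hp i x hx => exact hinv _ i.2 x hx
    | h1 => simp
    | hmul a b _ _ ha hb => intro w hw; simpa [mul_assoc] using ha _ (hb w hw)) fun w hw =>
      (Nat.eq_of_mul_eq_mul_right (Nat.pos_of_ne_zero (FiniteIndex.index_ne_zero (H := S.subgroupOf A)))
        ((h2 z hz).trans (h2 w hw).symm)).dvd
  exact (h1 y hy).trans (relIndex_eq_one.1 (Nat.eq_one_of_dvd_coprimes hc ⟨_, (h2 z hz).symm⟩ h3))

theorem half_trans (hn : ∀ a ∈ A, ∀ x ∈ N, a * x * a⁻¹ ∈ N)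
    (hk : ∀ x ∈ N, x ≠ 1 → (centralizer {x}).relIndex A = k) (hf : centralizer (N : Set G) ⊓ A = ⊥) {x₀ : G}
    (h0 : x₀ ∈ N) (h1 : x₀ ≠ 1) (h2 : centralizer {x₀} ⊓ A ≠ ⊥) :
    (∃ p : ℕ, p.Prime ∧ IsMulCommutative N ∧ ∀ x ∈ N, x ^ p = 1) ∧
      ∀ U ≤ N, (∀ a ∈ A, ∀ x ∈ U, a * x * a⁻¹ ∈ U) → U = ⊥ ∨ U = N := by
  have hcop : k.Coprime (Nat.card N) := by
    have := H10.dvd_ncard_of_conj A (S := (N : Set G) \ {1}) (Set.toFinite _) k
      (fun a ha x hx => ⟨hn a ha x hx.1, by simpa using hx.2⟩) fun x hx => (hk x hx.1 hx.2).symm.dvd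
    have e : ((N : Set G) \ {1}).ncard + 1 = Nat.card N := Set.ncard_sdiff_singleton_add_one N.one_mem
    obtain ⟨c, hc⟩ := this
    rw [← e, hc]; simp
  have hcard : ∀ x ∈ N, x ≠ 1 → Nat.card ↥(centralizer {x} ⊓ A) = Nat.card ↥(centralizer {x₀} ⊓ A) :=
    fun x hx hx1 => Nat.eq_of_mul_eq_mul_right (Nat.pos_of_ne_zero (FiniteIndex.index_ne_zero
      (H := (centralizer {x}).subgroupOf A))) (by
      rw [← relIndex, card_inf_mul_relIndex, hk x hx hx1, ← hk x₀ h0 h1, card_inf_mul_relIndex])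
  let P : G → Subgroup G := fun x => N ⊓ centralizer (centralizer {x} ⊓ A : Subgroup G)
  have hP : ∀ x z, z ∈ P x ↔ z ∈ N ∧ centralizer {x} ⊓ A ≤ centralizer {z} := fun x z =>
    and_congr_right fun _ => ⟨fun h s hs => mem_centralizer_singleton_iff.2 (h s hs),
      fun h s hs => mem_centralizer_singleton_iff.1 (h hs)⟩
  have hself : ∀ x ∈ N, x ∈ P x := fun x hx => (hP x x).2 ⟨hx, inf_le_left⟩
  have heq : ∀ x ∈ N, x ≠ 1 → ∀ z ∈ P x, z ≠ 1 → P z = P x := fun x hx x1 z hz z1 => by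
    obtain ⟨e1, e2⟩ := (hP x z).1 hz
    simp only [P, eq_of_le_of_card_ge (le_inf e2 inf_le_right) ((hcard z e1 z1).trans (hcard x hx x1).symm).le]
  have hout : ∀ x ∈ N, x ≠ 1 → ∃ z ∈ N, z ∉ P x := fun x hx x1 => by
    by_contra h
    push Not at h
    have : centralizer {x} ⊓ A = ⊥ := eq_bot_iff.2 (hf ▸ le_inf (fun s hs z hz =>
      (mem_centralizer_singleton_iff.1 (((hP x z).1 (h z hz)).2 hs)).symm) inf_le_right)
    exact h2 (card_eq_one.1 (by rw [← hcard x hx x1, this, card_bot]))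
  have hdis : ∀ x ∈ N, x ≠ 1 → ∀ y ∈ N, y ∉ P x → ∀ z ∈ P x, z ∈ P y → z = 1 := fun x hx x1 y hy hxy z z1 z2 =>
    by_contra fun h => hxy (by
      rw [← heq x hx x1 z z1 h, heq y hy (by rintro rfl; exact hxy (one_mem _)) z z2 h]; exact hself y hy)
  have hnorm : ∀ x ∈ N, ∀ n ∈ N, n * x * n⁻¹ ∈ P x := fun x hx n hn' => by
    by_cases x1 : x = 1
    · simp [x1]
    let _ : MulAction N G := MulAction.compHom G (MulAut.conj.comp N.subtype)
    refine (hP _ _).2 ⟨mul_mem (mul_mem hn' hx) (inv_mem hn'), half_block (k := k) (B := MulAction.orbit N x) ?_ ?_ ?_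
      (MulAction.mem_orbit_self x) ⟨⟨n, hn'⟩, rfl⟩⟩
    · rintro _ ⟨m, rfl⟩
      exact hk _ (mul_mem (mul_mem m.2 hx) (inv_mem m.2)) (by
        show (m : G) * x * (m : G)⁻¹ ≠ 1
        simpa using x1)
    · rintro _ ⟨m, rfl⟩ s hs _ ⟨l, rfl⟩
      have e : s * (m * x * (m : G)⁻¹) = m * x * (m : G)⁻¹ * s := mem_centralizer_singleton_iff.1 hs.1
      refine ⟨⟨s * (l * (m : G)⁻¹) * s⁻¹, hn s hs.2 _ (mul_mem l.2 (inv_mem m.2))⟩ * m, ?_⟩
      show s * (l * (m : G)⁻¹) * s⁻¹ * m * x * (s * (l * (m : G)⁻¹) * s⁻¹ * m)⁻¹ = s * (l * x * (l : G)⁻¹) * s⁻¹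
      calc _ = s * (l * (m : G)⁻¹) * s⁻¹ * (m * x * (m : G)⁻¹ * s) * (m * (l : G)⁻¹ * s⁻¹) := by group
        _ = _ := by rw [← e]; group
    · rw [← MulAction.index_stabilizer]
      exact hcop.coprime_dvd_right (index_dvd_card _)
  have hc1 : ∀ x ∈ N, x ≠ 1 → ∀ y ∈ N, y ∉ P x → Commute x y := fun x hx x1 y hy hxy => by
    have := hdis x hx x1 y hy hxy (x * y * x⁻¹ * y⁻¹)
      (by simpa [mul_assoc] using mul_mem (hself x hx) (inv_mem (hnorm x hx y hy)))
      (mul_mem (hnorm y hy x hx) (inv_mem (hself y hy)))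
    rwa [mul_inv_eq_one, mul_inv_eq_iff_eq_mul] at this
  have hcomm : ∀ x ∈ N, ∀ y ∈ N, Commute x y := fun x hx y hy => by
    by_cases x1 : x = 1
    · simp [x1]
    by_cases hxy : y ∈ P x
    · obtain ⟨z, hz, hxz⟩ := hout x hx x1
      simpa using (hc1 x hx x1 _ (mul_mem hy hz) fun h => hxz ((mul_mem_cancel_left hxy).1 h)).mul_right
        (hc1 x hx x1 z hz hxz).inv_right
    · exact hc1 x hx x1 y hy hxy
  refine ⟨?_, fun U hU hA => or_iff_not_imp_left.2 fun hb => le_antisymm hU fun y hy => by_contra fun hyU => ?_⟩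
  · obtain ⟨p, hp, hd⟩ := Nat.exists_prime_and_dvd (n := orderOf x₀) (by simpa using h1)
    have ho := orderOf_pow_orderOf_div (orderOf_pos x₀).ne' hd
    generalize hx : x₀ ^ (orderOf x₀ / p) = x at ho
    replace hx : x ∈ N := hx ▸ pow_mem h0 _
    have x1 : x ≠ 1 := by rintro rfl; exact hp.ne_one (by simpa using ho.symm)
    have e1 : ∀ y ∈ N, y ∉ P x → y ^ p = 1 := fun y hy hxy => by
      have y1 : y ≠ 1 := by rintro rfl; exact hxy (one_mem _)
      refine hdis y hy y1 (x * y) (mul_mem hx hy) (fun h => hxy ?_) _ (pow_mem (hself y hy) p) ?_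
      · rw [heq y hy y1 x ((mul_mem_cancel_right (hself y hy)).1 h) x1]; exact hself y hy
      · have := pow_mem (hself _ (mul_mem hx hy)) p
        rwa [(hcomm x hx y hy).mul_pow, ← ho, pow_orderOf_eq_one, one_mul, ho] at this
    refine ⟨p, hp, ⟨⟨fun a b => Subtype.ext (hcomm a a.2 b b.2)⟩⟩, fun y hy => ?_⟩
    by_cases hxy : y ∈ P x
    · obtain ⟨z, hz, hxz⟩ := hout x hx x1
      have := e1 _ (mul_mem hy hz) fun h => hxz ((mul_mem_cancel_left hxy).1 h)
      rwa [(hcomm y hy z hz).mul_pow, e1 z hz hxz, mul_one] at this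
    · exact e1 y hy hxy
  · have key : ∀ y ∈ N, y ∉ U → U ≤ P y := fun y hy hyU u hu => by
      refine (mul_mem_cancel_left (hself y hy)).1 ((hP _ _).2 ⟨mul_mem hy (hU hu),
        half_block (k := k) (B := (y * ·) '' U) ?_ ?_ ?_ ⟨1, U.one_mem, mul_one y⟩ ⟨u, hu, rfl⟩⟩)
      · rintro _ ⟨v, hv, rfl⟩
        exact hk _ (mul_mem hy (hU hv)) fun e => hyU (by rw [eq_inv_of_mul_eq_one_left e]; exact inv_mem hv)
      · rintro _ ⟨v, hv, rfl⟩ s hs _ ⟨w, hw, rfl⟩
        have e : s * (y * v) = y * v * s := mem_centralizer_singleton_iff.1 hs.1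
        refine ⟨v * (s * (v⁻¹ * w) * s⁻¹), mul_mem hv (hA s hs.2 _ (mul_mem (inv_mem hv) hw)), ?_⟩
        calc y * (v * (s * (v⁻¹ * w) * s⁻¹)) = y * v * s * (v⁻¹ * w * s⁻¹) := by group
          _ = _ := by rw [← e]; group
      · rw [Set.ncard_image_of_injective _ (mul_right_injective y)]
        exact hcop.coprime_dvd_right (card_dvd_of_le hU)
    obtain ⟨u, hu, u1⟩ := (nontrivial_iff_exists_ne_one U).1 ((nontrivial_iff_ne_bot U).2 hb)
    obtain ⟨z, hz, hzu⟩ := hout u (hU hu) u1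
    have e : ∀ y ∈ N, y ∉ U → P u = P y := fun y hy hyU =>
      heq y hy (by rintro rfl; exact hyU U.one_mem) u (key y hy hyU hu) u1
    by_cases hzU : z ∈ U
    · exact hzu (e y hy hyU ▸ key y hy hyU hzU)
    · exact hzu (e z hz hzU ▸ hself z hz)

end H16
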