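import Cfsg.Agent.H8.Cd1

/-! The inclusion `K ≤ N P'` of S4591. -/
set_option autoImplicit false
namespace H16.KpY
open H5 H6 H8 Cfsg Subgroup
open scoped commutatorElement

theorem lin {G : Type*} [Group G] [Finite G] (p : ℕ) (K H : Subgroup G) (hH : ¬ p ∣ H.index)
    (hK : ∀ χ, IsIrrCharacter G χ → ¬ p ∣ charDegree χ → K ≤ charKer χ) : K ⊓ H ≤ ⁅H, H⁆ := by
  classical
  have := Fintype.ofFinite G
  rintro x ⟨hxK, hxH⟩
  rw [← map_subtype_commutator]
  refine ⟨⟨x, hxH⟩, ?_, rfl⟩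
  by_contra e
  obtain ⟨η, h1, h2, h3⟩ := exists_irr_le_charKer_not_mem (commutator H) e
  have h4 : charDegree η = 1 := charDegree_of_eq (by rw [h1.commutator_le_charKer_iff.1 h2]; simp)
  obtain ⟨χ, h7, h8⟩ := exists_constituent_not_dvd (isCharacter_ind _ h1.isCharacter) (n := p) (by
    rw [deg_ind h1.isCharacter, h4, mul_one]; exact hH)
  rw [inner_ind_left _ _ χ.2.isClassFunction, Ne, classInner_eq_zero_comm] at h7
  exact h3 (ker_le_of_constituent χ.2.isCharacter h1 h7 (x := ⟨x, hxH⟩) (hK _ χ.2 h8 hxK))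

theorem rel_dvd {G : Type*} [Group G] [Finite G] (H N : Subgroup G) [N.Normal] : H.relIndex N ∣ H.index := by
  obtain ⟨m, hm⟩ := Subgroup.relIndex_dvd_index_of_normal N H
  have h1 := Subgroup.relIndex_inf_mul_relIndex H N ⊤
  have h2 := Subgroup.relIndex_inf_mul_relIndex N H ⊤
  simp only [inf_top_eq, Subgroup.relIndex_top_right] at h1 h2
  rw [inf_comm, ← h2, hm, mul_left_comm] at h1
  exact ⟨m, (Nat.eq_of_mul_eq_mul_left (Nat.pos_of_ne_zero Subgroup.index_ne_zero_of_finite) h1).symm⟩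

theorem pY {G : Type*} [Group G] [Finite G] (p : ℕ) [hp : Fact p.Prime] (P : Sylow p G) (N : Subgroup G) [N.Normal]
    (hmax : ∀ L : Subgroup G, L.Normal → L ⊓ centralizer ((P : Subgroup G) : Set G) = ⊥ → L ≤ N)
    (K : Subgroup G) [K.Normal] (hK : ∀ χ, IsIrrCharacter G χ → ¬ p ∣ charDegree χ → K ≤ charKer χ) :
    K ≤ N ⊔ ⁅(P : Subgroup G), (P : Subgroup G)⁆ := by
  set V := (pResidual p K).map K.subtype with hV
  have hVK : V ≤ K := map_subtype_le _
  have hidx : ∀ H : Subgroup G, (P : Subgroup G) ≤ H → ¬ p ∣ H.index := fun H h e =>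
    P.not_dvd_index (e.trans (index_dvd_of_le h))
  have hVp : ¬ p ∣ Nat.card V := fun hd => by
    obtain ⟨χ, h1, h2, h3⟩ := berkovich (p := p) (V := V) (by
      apply map_injective V.subtype_injective
      rw [← MonoidHom.range_eq_map, range_subtype]
      refine le_antisymm (map_subtype_le _) (H3.map_subtype_pResidual_le_iff.2 fun g hg hc => ?_)
      exact H3.mem_map_subtype_pResidual (H3.mem_map_subtype_pResidual hg hc) hc) hd
    exact h2 (hVK.trans (hK χ h1 h3))
  have hVN : V ≤ N := by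
    refine hmax V inferInstance (eq_bot_iff.2 ?_)
    rintro x ⟨hxV, hxC⟩
    have h1 := lin p K (zpowers x ⊔ P) (hidx _ le_sup_right) hK ⟨hVK hxV, mem_sup_left (mem_zpowers x)⟩
    have hC : zpowers x ≤ centralizer ((P : Subgroup G) : Set G) := zpowers_le.2 hxC
    have hn : zpowers x ≤ normalizer ((P : Subgroup G) : Set G) := hC.trans (centralizer_le_normalizer _)
    have h2 : ⁅zpowers x ⊔ (P : Subgroup G), zpowers x ⊔ (P : Subgroup G)⁆ ≤ P := by
      rw [commutator_le]
      intro a ha b hb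
      have ha' : a ∈ ((zpowers x ⊔ (P : Subgroup G) : Subgroup G) : Set G) := ha
      have hb' : b ∈ ((zpowers x ⊔ (P : Subgroup G) : Subgroup G) : Set G) := hb
      rw [coe_mul_of_left_le_normalizer_right _ _ hn] at ha' hb'
      obtain ⟨s, hs, u, hu, rfl⟩ := ha'
      obtain ⟨t, ht, v, hv, rfl⟩ := hb'
      have c1 : Commute s t := by
        obtain ⟨i, rfl⟩ := hs
        obtain ⟨j, rfl⟩ := ht
        exact Commute.zpow_zpow_self x i j
      have c2 : ∀ w ∈ (P : Subgroup G), Commute s w := fun w hw => (mem_centralizer_iff.1 (hC hs) w hw).symm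
      have c3 : ∀ w ∈ (P : Subgroup G), Commute t w := fun w hw => (mem_centralizer_iff.1 (hC ht) w hw).symm
      have e : ⁅s * u, t * v⁆ = ⁅u, v⁆ := by
        have d1 : Commute s (t * v) := c1.mul_right (c2 v hv)
        have d2 : Commute s u := c2 u hu
        have d3 : Commute t u := c3 u hu
        have d4 : Commute t v := c3 v hv
        simp only [commutatorElement_def, mul_inv_rev]
        calc s * u * (t * v) * (u⁻¹ * s⁻¹) * (v⁻¹ * t⁻¹)
            = (s * (u * (t * v) * u⁻¹) * s⁻¹) * (v⁻¹ * t⁻¹) := by group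
          _ = (u * (t * v) * u⁻¹) * (v⁻¹ * t⁻¹) := by
            rw [((d2.mul_right d1).mul_right d2.inv_right).mul_inv_cancel]
          _ = (u * t) * (v * u⁻¹ * v⁻¹) * t⁻¹ := by group
          _ = t * (u * v * u⁻¹ * v⁻¹) * t⁻¹ := by rw [← d3.eq]; group
          _ = u * v * u⁻¹ * v⁻¹ := (((d3.mul_right d4).mul_right d3.inv_right).mul_right d4.inv_right).mul_inv_cancel
      show ⁅s * u, t * v⁆ ∈ (P : Subgroup G)
      rw [e, commutatorElement_def]
      exact mul_mem (mul_mem (mul_mem hu hv) (inv_mem hu)) (inv_mem hv)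
    obtain ⟨k, hk⟩ := P.isPGroup' ⟨x, h2 h1⟩
    have h3 : orderOf x ∣ p ^ k := orderOf_dvd_of_pow_eq_one (by simpa using congrArg Subtype.val hk)
    have h4 : orderOf x ∣ Nat.card V := V.orderOf_dvd_natCard hxV
    rw [mem_bot, ← orderOf_eq_one_iff]
    exact Nat.eq_one_of_dvd_coprimes (((Nat.Prime.coprime_iff_not_dvd hp.out).2 hVp).pow_left k) h3 h4
  have hKH : K ≤ N ⊔ P := by
    intro x hx
    have h1 : (⟨x, hx⟩ : K) ∈ pResidual p K ⊔ (P : Subgroup G).subgroupOf K := by
      rw [H3.pResidual_sup_eq_top]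
      · trivial
      · intro e
        exact P.not_dvd_index (e.trans (rel_dvd (P : Subgroup G) K))
    have h2 := mem_map_of_mem K.subtype h1
    rw [Subgroup.map_sup] at h2
    exact (sup_le_sup hVN (by rw [subgroupOf_map_subtype]; exact inf_le_left)) h2
  refine (le_inf le_rfl hKH).trans ((lin p K (N ⊔ P) (hidx _ le_sup_right) hK).trans ?_)
  rw [commutator_le]
  intro a ha b hb
  have ha' : a ∈ ((N ⊔ (P : Subgroup G) : Subgroup G) : Set G) := ha
  have hb' : b ∈ ((N ⊔ (P : Subgroup G) : Subgroup G) : Set G) := hb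
  rw [normal_mul] at ha' hb'
  obtain ⟨s, hs, u, hu, rfl⟩ := ha'
  obtain ⟨t, ht, v, hv, rfl⟩ := hb'
  have h1 : ⁅s * u, t * v⁆ * ⁅u, v⁆⁻¹ ∈ N := by
    rw [← QuotientGroup.eq_one_iff]
    have e1 : (s : G ⧸ N) = 1 := (QuotientGroup.eq_one_iff s).2 hs
    have e2 : (t : G ⧸ N) = 1 := (QuotientGroup.eq_one_iff t).2 ht
    simp only [commutatorElement_def, QuotientGroup.mk_mul, QuotientGroup.mk_inv, e1, e2, one_mul, mul_inv_cancel]
  have h2 := mul_mem (mem_sup_left (T := ⁅(P : Subgroup G), (P : Subgroup G)⁆) h1)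
    (mem_sup_right (S := N) (commutator_mem_commutator hu hv))
  rwa [inv_mul_cancel_right] at h2

end H16.KpY
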