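import Cfsg.Agent.H16.PTools
import Cfsg.Agent.H16.Homog
import Cfsg.Agent.H5.TI
import Cfsg.Agent.H2.Subnormal
import Mathlib.GroupTheory.FixedPointFree

/-! Groups induced on subsets by multiply transitive groups (`Ind`, `Full`, `Alt`); `m`-transitive groups in which only
the identity fixes `m + 1` points (`full_of_even`, `tri`); `exists_alt`: a `k`-transitive group (`k ≥ 4`) induces the
alternating group on some `(k+1)`-set. -/

set_option autoImplicit false
set_option linter.unusedSectionVars false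

namespace H16.LW
open MulAction Equiv Equiv.Perm Finset
open scoped Pointwise

section
variable (G : Type*) {α : Type*} [Group G] [MulAction G α] [Fintype α] [DecidableEq α]

/-- `π` is induced on `Δ` -/
def Ind (Δ : Finset α) (π : Perm α) : Prop := ∃ g : G, ∀ x ∈ Δ, g • x = π x
/-- the symmetric group is induced on `Δ` -/
def Full (Δ : Finset α) : Prop := ∀ π : Perm α, π.support ⊆ Δ → Ind G Δ π
/-- the alternating group is induced on `Δ` -/
def Alt (Δ : Finset α) : Prop := ∀ π : Perm α, π.support ⊆ Δ → sign π = 1 → Ind G Δ π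
variable (α) in
/-- only the identity fixes `k` points -/
def Sh (k : ℕ) : Prop := ∀ (g : G) (s : Finset α), k ≤ s.card → (∀ x ∈ s, g • x = x) → g = 1
variable (α) in
/-- elements fixing `k` points have odd order -/
def Od (k : ℕ) : Prop := ∀ (g : G) (s : Finset α), k ≤ s.card → (∀ x ∈ s, g • x = x) → Odd (orderOf g)

variable {G} {Δ : Finset α} {m : ℕ}

theorem mem_of_supp {π : Perm α} (h : π.support ⊆ Δ) {x : α} (hx : x ∈ Δ) : π x ∈ Δ := by
  by_cases e : π x = x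
  · rwa [e]
  · exact h (apply_mem_support.2 (mem_support.2 e))

theorem swap_supp {a b : α} (ha : a ∈ Δ) (hb : b ∈ Δ) : (swap a b).support ⊆ Δ := fun x hx => by
  by_contra k
  exact mem_support.1 hx (swap_apply_of_ne_of_ne (fun e => k (e ▸ ha)) fun e => k (e ▸ hb))

theorem Ind.mul {π ρ : Perm α} (h1 : Ind G Δ π) (h2 : Ind G Δ ρ) (h : ρ.support ⊆ Δ) : Ind G Δ (π * ρ) :=
  let ⟨g, hg⟩ := h1; let ⟨u, hu⟩ := h2
  ⟨g * u, fun x hx => by rw [mul_smul, hu x hx, hg _ (mem_of_supp h hx), mul_apply]⟩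

theorem full_of_sw (h : ∀ a ∈ Δ, ∀ b ∈ Δ, a ≠ b → Ind G Δ (swap a b)) : Full G Δ := by
  intro π
  induction hn : π.support.card using Nat.strong_induction_on generalizing π with
  | _ n ih =>
  intro hπ
  by_cases e : π = 1
  · exact ⟨1, by simp [e]⟩
  obtain ⟨a, ha⟩ : ∃ a, π a ≠ a := by by_contra! k; exact e (Equiv.ext k)
  have h1 := hπ (mem_support.2 ha)
  have h2 : (swap a (π a) * π).support ⊆ Δ := fun x hx => hπ (mem_support_swap_mul_imp_mem_support_ne hx).1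
  rw [← swap_mul_self_mul a (π a) π]
  exact (h a h1 _ (mem_of_supp hπ h1) ha.symm).mul (ih _ (hn ▸ card_support_swap_mul ha) _ rfl h2) h2

theorem ind_smul (g : G) {π : Perm α} (h : π.support ⊆ g • Δ) : ∃ ρ : Perm α, ρ.support ⊆ Δ ∧ sign ρ = sign π ∧
    (Ind G Δ ρ → Ind G (g • Δ) π) := by
  refine ⟨(toPerm g)⁻¹ * π * toPerm g, fun x hx => smul_mem_smul_finset_iff g |>.1 (h (mem_support.2 fun e => ?_)),
    by rw [map_mul, map_mul, sign_inv, mul_right_comm, Int.units_mul_self, one_mul], fun ⟨u, hu⟩ => ⟨g * u * g⁻¹, fun x hx => ?_⟩⟩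
  · exact mem_support.1 hx (by simp [e])
  · obtain ⟨y, hy, rfl⟩ := mem_smul_finset.1 hx
    simp [mul_smul, hu y hy]

theorem ind_of_homog (h : Homog G α Δ.card) {f : α → α} (hf : Set.InjOn f Δ) :
    ∃ (g : G) (π : Perm α), π.support ⊆ Δ ∧ ∀ x ∈ Δ, g • π x = f x := by
  obtain ⟨g, hg⟩ := h Δ (Δ.image f) rfl (card_image_of_injOn hf)
  have k : ∀ x ∈ Δ, g⁻¹ • f x ∈ Δ := fun x hx => inv_smul_mem_iff.2 (hg ▸ mem_image_of_mem f hx)
  refine ⟨g, Equiv.ofBijective (fun x => if x ∈ Δ then g⁻¹ • f x else x) (Finite.injective_iff_bijective.1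
    fun x y e => ?_), fun x hx => ?_, fun x hx => by simp [hx]⟩
  · by_cases hx : x ∈ Δ <;> by_cases hy : y ∈ Δ <;> simp only [hx, hy, if_true, if_false] at e
    · exact hf hx hy (smul_left_cancel _ e)
    · exact absurd (e ▸ k x hx) hy
    · exact absurd (e ▸ k y hy) hx
    · exact e
  · by_contra k
    simp [k] at hx

theorem trans_of_full (h : Homog G α Δ.card) (hF : Full G Δ) : IsMultiplyPretransitive G α Δ.card :=
  isMultiplyPretransitive_of_eqOn fun s hs f hf => by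
    obtain ⟨u, rfl⟩ := h Δ s rfl hs
    obtain ⟨g, π, h1, h2⟩ := ind_of_homog (hs ▸ h) hf
    obtain ⟨ρ, h3, -, h4⟩ := ind_smul u h1
    obtain ⟨v, hv⟩ := h4 (hF ρ h3)
    exact ⟨g * v, fun x hx => by rw [mul_smul, hv x hx, h2 x hx]⟩

theorem Alt.smul (h : Alt G Δ) (g : G) : Alt G (g • Δ) := fun _ h1 h2 =>
  let ⟨ρ, h3, h4, h5⟩ := ind_smul g h1; h5 (h ρ h3 (h4.trans h2))

theorem full_of_even (ht : IsMultiplyPretransitive G α (m + 1)) (hs : Sh G α (m + 2)) {z : G} (h1 : z ≠ 1)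
    (h2 : z * z = 1) {Γ : Finset α} (hΓ : Γ.card = m + 1) (h3 : ∀ x ∈ Γ, z • x = x) (hΔ : Δ.card = m + 2) :
    Full G Δ := full_of_sw fun a ha b hb hab => by
  have hΨ : (Δ \ {a, b}).card = m := by
    rw [card_sdiff_of_subset (insert_subset ha (singleton_subset_iff.2 hb)), card_pair hab, hΔ]; rfl
  have mΨ : ∀ x ∈ Δ, x ≠ a → x ≠ b → x ∈ Δ \ {a, b} := fun x h1 h2 h3 => by simp [h1, h2, h3]
  have aΨ : a ∉ Δ \ {a, b} := by simp
  have bΨ : b ∉ Δ \ {a, b} := by simp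
  generalize Δ \ {a, b} = Ψ at *
  have ex : ∀ e ∉ Ψ, ∃ y : G, y ≠ 1 ∧ y * y = 1 ∧ ∀ x ∈ insert e Ψ, y • x = x := fun e he => by
    obtain ⟨g, hg⟩ := homog_of_transitive ht Γ (insert e Ψ) hΓ (by rw [card_insert_of_notMem he, hΨ])
    refine ⟨g * z * g⁻¹, by simpa using h1, by rw [conj_mul, h2]; simp, fun x hx => ?_⟩
    obtain ⟨y, hy, rfl⟩ := mem_smul_finset.1 (hg ▸ hx)
    simp [mul_smul, h3 y hy]
  choose! y y1 y2 y3 using ex
  have two : ∀ (g : G) (c d : α), c ∉ Ψ → d ∉ Ψ → (∀ x ∈ Ψ, g • x = x) → g • c = c → g • d = d → c = d ∨ g = 1 :=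
    fun g c d hc hd k1 k2 k3 => or_iff_not_imp_left.2 fun k => hs g (insert c (insert d Ψ))
      (by rw [card_insert_of_notMem (by simp [k, hc]), card_insert_of_notMem hd, hΨ]) (by simpa [k2, k3] using k1)
  have y4 : ∀ e ∉ Ψ, ∀ x ∈ Ψ, y e • x = x := fun e he x hx => y3 e he x (mem_insert_of_mem hx)
  have y5 : ∀ e ∉ Ψ, ∀ x : α, y e • y e • x = x := fun e he x => by rw [← mul_smul, y2 e he, one_smul]
  have y6 : ∀ e ∈ (insert a Ψ)ᶜ, y e • a ∈ (insert a Ψ)ᶜ := fun e he => by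
    simp only [mem_compl, mem_insert, not_or] at he ⊢
    exact ⟨fun k => (two _ e a he.2 aΨ (y4 e he.2) (y3 e he.2 e (mem_insert_self _ _)) k).elim he.1 (y1 e he.2),
      fun k => aΨ (smul_left_cancel _ (y4 e he.2 _ k) ▸ k)⟩
  obtain ⟨e, he, k⟩ := surj_on_of_inj_on_of_card_le (fun e _ => y e • a) y6 (fun e e' he he' k => by
    have k1 := y6 e he
    simp only [mem_compl, mem_insert, not_or] at he he' k1
    have k2 := (two (y e * y e') a (y e • a) aΨ k1.2 (fun x hx => by rw [mul_smul, y4 e' he'.2 x hx, y4 e he.2 x hx])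
      (by rw [mul_smul, ← k, y5 e he.2]) (by rw [mul_smul]; nth_rw 1 [k]; rw [y5 e' he'.2])).resolve_left
      (Ne.symm k1.1)
    have k3 : y e = y e' := by rw [eq_inv_of_mul_eq_one_left k2, inv_eq_of_mul_eq_one_right (y2 e' he'.2)]
    exact (two _ e e' he.2 he'.2 (y4 e he.2) (y3 e he.2 e (mem_insert_self _ _))
      (k3 ▸ y3 e' he'.2 e' (mem_insert_self _ _))).resolve_right (y1 e he.2)) le_rfl b (by simp [hab.symm, bΨ])
  simp only [mem_compl, mem_insert, not_or] at he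
  refine ⟨y e, fun x hx => ?_⟩
  by_cases e1 : x = a
  · rw [e1, swap_apply_left, k]
  by_cases e2 : x = b
  · rw [e2, swap_apply_right, k, y5 e he.2]
  · rw [swap_apply_of_ne_of_ne e1 e2, y4 e he.2 x (mΨ x hx e1 e2)]

variable [Finite G]

theorem od_of (h : ∀ (z : G) (s : Finset α), m ≤ s.card → (∀ x ∈ s, z • x = x) → z * z = 1 → z = 1) : Od G α m :=
  fun g s h1 h2 => Nat.not_even_iff_odd.1 fun ⟨j, hj⟩ => by
    have := orderOf_pos g
    exact pow_ne_one_of_lt_orderOf (n := j) (by omega) (by omega) (h (g ^ j) s h1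
      (fun x hx => (stabilizer G x).pow_mem (h2 x hx) j) (by rw [← pow_add, ← hj, pow_orderOf_eq_one]))

theorem Od.inv (ho : Od G α m) {z : G} {s : Finset α} (h1 : m ≤ s.card) (h2 : ∀ x ∈ s, z • x = x) (h3 : z * z = 1) :
    z = 1 := orderOf_eq_one_iff.1 (Nat.eq_one_of_dvd_coprimes (Nat.coprime_two_right.2 (ho z s h1 h2)) dvd_rfl
      (orderOf_dvd_of_pow_eq_one (by rw [sq, h3])))

theorem exists_inv (ht : IsMultiplyPretransitive G α m) (ho : Od G α m) {Γ : Finset α} (hΓ : Γ.card = m) {u v : α}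
    (hu : u ∈ Γ) (hv : v ∈ Γ) : ∃ z : G, z * z = 1 ∧ ∀ x ∈ Γ, z • x = swap u v x := by
  obtain ⟨g, hg⟩ := exists_smul_eqOn_of_card_eq ht Γ hΓ (swap u v) (swap u v).injective.injOn
  have k : ∀ x ∈ Γ, (g * g) • x = x := fun x hx => by
    rw [mul_smul, hg x hx, hg _ (mem_of_supp (swap_supp hu hv) hx), swap_apply_self]
  obtain ⟨j, hj⟩ := ho _ Γ hΓ.ge k
  refine ⟨g ^ (2 * j + 1), by rw [← (Commute.refl g).mul_pow, ← hj, pow_orderOf_eq_one], fun x hx => ?_⟩
  rw [pow_succ', mul_smul, pow_mul, sq, mem_stabilizer_iff.1 ((stabilizer G x).pow_mem (k x hx) j), hg x hx]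

theorem sw_of_sw (ht : IsMultiplyPretransitive G α m) (hs : Sh G α (m + 1)) (ho : Od G α m) (hΔ : Δ.card = m + 1)
    {u v a b : α} (hu : u ∈ Δ) (hv : v ∈ Δ) (ha : a ∈ Δ) (hb : b ∈ Δ) (uv : u ≠ v) (ab : a ≠ b) (au : a ≠ u)
    (av : a ≠ v) (bu : b ≠ u) (bv : b ≠ v) (h : Ind G Δ (swap u v)) : Ind G Δ (swap a b) := by
  obtain ⟨g, hg⟩ := h
  have g2 : g * g = 1 := hs _ Δ hΔ.ge fun x hx => by
    rw [mul_smul, hg x hx, hg _ (mem_of_supp (swap_supp hu hv) hx), swap_apply_self]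
  obtain ⟨h, hh⟩ := exists_smul_eqOn_of_card_eq ht (Δ.erase a) (by rw [card_erase_of_mem ha, hΔ]; rfl) (swap a b)
    (swap a b).injective.injOn
  have c : ∀ x, swap a b (swap u v x) = swap u v (swap a b x) := fun x => by
    simp only [swap_apply_def]; grind
  have sw : ∀ x ∈ Δ.erase b, swap a b x ∈ Δ.erase a := fun x hx => mem_erase.2
    ⟨fun e => (mem_erase.1 hx).1 (by simpa using congrArg (swap a b) e),
      mem_of_supp (swap_supp ha hb) (mem_erase.1 hx).2⟩
  have h1 : ∀ x ∈ Δ.erase b, (h * g * h⁻¹) • x = swap u v x := fun x hx => by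
    have k := sw x hx
    have k2 : swap u v (swap a b x) ∈ Δ.erase a :=
      mem_of_supp (swap_supp (mem_erase.2 ⟨au.symm, hu⟩) (mem_erase.2 ⟨av.symm, hv⟩)) k
    rw [mul_smul, mul_smul, inv_smul_eq_iff.2 ((hh _ k).trans (swap_apply_self _ _ _)).symm, hg _ (mem_erase.1 k).2,
      hh _ k2, c, swap_apply_self]
  have h2 : (h * g * h⁻¹) • h • a = h • a := by
    rw [mul_smul, inv_smul_smul, mul_smul, hg a ha, swap_apply_of_ne_of_ne au av]
  have h3 : h * g * h⁻¹ * (h * g * h⁻¹) = 1 := by rw [conj_mul, g2]; simp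
  have h4 : h • a ∉ Δ.erase b := fun k =>
    (mem_erase.1 (sw _ k)).1 (smul_left_cancel h ((hh _ (sw _ k)).trans (swap_apply_self _ _ _)))
  generalize h * g * h⁻¹ = g' at h1 h2 h3
  have cb : (Δ.erase b).card = m := by rw [card_erase_of_mem hb, hΔ]; rfl
  have k : ∀ x ∈ Δ.erase b, (g * g') • x = x := fun x hx => by
    have := mem_of_supp (swap_supp (mem_erase.2 ⟨bu.symm, hu⟩) (mem_erase.2 ⟨bv.symm, hv⟩)) hx
    rw [mul_smul, h1 x hx, hg _ (mem_erase.1 this).2, swap_apply_self]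
  obtain ⟨j, hj⟩ := ho _ _ cb.ge k
  have k1 : ∀ x ∈ Δ.erase b, (g * g') ^ (j + 1) • x = x := fun x hx => (stabilizer G x).pow_mem (k x hx) _
  have k2 : g * (g * g') ^ (j + 1) = (g * g') ^ (j + 1) * g' := by
    have e : SemiconjBy g (g * g') (g * g')⁻¹ := by
      rw [SemiconjBy, mul_inv_rev, inv_eq_of_mul_eq_one_right g2, inv_eq_of_mul_eq_one_right h3, ← mul_assoc, g2,
        mul_assoc, g2, one_mul, mul_one]
    have e2 : (g * g') ^ j * (g * g') ^ (j + 1) = 1 := by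
      rw [← pow_add, ← pow_orderOf_eq_one (g * g'), hj]; congr 1; ring
    rw [(e.pow_right _).eq, inv_pow, inv_eq_of_mul_eq_one_left e2, pow_succ, mul_assoc, mul_assoc, h3, mul_one]
  generalize (g * g') ^ (j + 1) = w at k1 k2
  have k3 : g • w • h • a = w • h • a := by rw [← mul_smul, k2, mul_smul, h2]
  have k4 : w • h • a ∉ Δ.erase b := fun e => h4 (smul_left_cancel w (k1 _ e) ▸ e)
  have k5 : w • h • a = b := by
    by_contra e
    have k6 : w • h • a ∉ Δ \ {u, v} := fun k => k4 (mem_erase.2 ⟨e, (mem_sdiff.1 k).1⟩)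
    have := ho.inv (z := g) (s := insert (w • h • a) (Δ \ {u, v})) (by
      have := one_lt_card.2 ⟨u, hu, v, hv, uv⟩
      rw [card_insert_of_notMem k6, card_sdiff_of_subset (insert_subset hu (singleton_subset_iff.2 hv)), card_pair uv]
      omega) (fun x hx => by
        rcases mem_insert.1 hx with rfl | hx
        · exact k3
        · simp only [mem_sdiff, mem_insert, mem_singleton, not_or] at hx
          rw [hg x hx.1, swap_apply_of_ne_of_ne hx.2.1 hx.2.2]) g2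
    exact uv (by simpa [this] using hg u hu)
  refine ⟨w * h, fun x hx => ?_⟩
  by_cases e : x = a
  · rw [e, mul_smul, k5, swap_apply_left]
  · rw [mul_smul, hh x (mem_erase.2 ⟨e, hx⟩), k1]
    exact mem_erase.2 ⟨fun k => e (by simpa using congrArg (swap a b) k), mem_of_supp (swap_supp ha hb) hx⟩

theorem full_of_odd (h4 : 4 ≤ m) (ht : IsMultiplyPretransitive G α m) (hs : Sh G α (m + 1)) (ho : Od G α m)
    (hn : Odd (Fintype.card α - m)) : ∃ Δ : Finset α, Δ.card = m + 1 ∧ Full G Δ := by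
  obtain ⟨Γ, -, hΓ⟩ := exists_subset_card_eq (s := (univ : Finset α)) (n := m) (by
    have := hn.pos; rw [card_univ]; omega)
  obtain ⟨u, hu, v, hv, uv⟩ := one_lt_card.1 (by omega : 1 < Γ.card)
  obtain ⟨z, z1, z2⟩ := exists_inv ht ho hΓ hu hv
  have := ncard_modEq_fixedBy (p := 2) (n := 1) (g := z) (by simpa [sq] using z1) ((Γᶜ : Finset α) : Set α)
    (Set.toFinite _) fun x hx => mem_coe.2 (mem_compl.2 fun k => mem_compl.1 hx (by
      have := mem_of_supp (swap_supp hu hv) k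
      rwa [← z2 _ k, ← mul_smul, z1, one_smul] at this))
  rw [Set.ncard_coe_finset, card_compl, hΓ, Nat.ModEq, Nat.odd_iff.1 hn] at this
  obtain ⟨a, a1, a2⟩ := Set.nonempty_of_ncard_ne_zero fun e => by rw [e] at this; omega
  replace a1 := mem_compl.1 a1
  have hΔ : (insert a Γ).card = m + 1 := by rw [card_insert_of_notMem a1, hΓ]
  have h0 : Ind G (insert a Γ) (swap u v) := ⟨z, fun x hx => by
    rcases mem_insert.1 hx with rfl | hx
    · rw [a2, swap_apply_of_ne_of_ne (ne_of_mem_of_not_mem hu a1).symm (ne_of_mem_of_not_mem hv a1).symm]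
    · exact z2 x hx⟩
  replace hu := mem_insert_of_mem (b := a) hu
  replace hv := mem_insert_of_mem (b := a) hv
  refine ⟨_, hΔ, full_of_sw fun c hc d hd cd => ?_⟩
  by_cases k : c ≠ u ∧ c ≠ v ∧ d ≠ u ∧ d ≠ v
  · exact sw_of_sw ht hs ho hΔ hu hv hc hd uv cd k.1 k.2.1 k.2.2.1 k.2.2.2 h0
  obtain ⟨y, hy⟩ : ∃ y, ({u, v, c, d} : Finset α) ⊆ {u, v, y} := by
    by_cases e : c = u ∨ c = v
    · exact ⟨d, fun x => by grind⟩
    · exact ⟨c, fun x => by grind⟩
  obtain ⟨p, hp, q, hq, pq⟩ := one_lt_card.1 (show 1 < (insert a Γ \ {u, v, c, d}).card by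
    have := le_card_sdiff {u, v, c, d} (insert a Γ)
    have := (card_le_card hy).trans card_le_three
    omega)
  simp only [mem_sdiff, mem_insert (b := u), mem_insert (b := v), mem_insert (b := c), mem_singleton, not_or] at hp hq
  exact sw_of_sw ht hs ho hΔ hp.1 hq.1 hc hd pq cd (Ne.symm hp.2.2.2.1) (Ne.symm hq.2.2.2.1) (Ne.symm hp.2.2.2.2)
    (Ne.symm hq.2.2.2.2) (sw_of_sw ht hs ho hΔ hu hv hp.1 hq.1 uv pq hp.2.1 hp.2.2.1 hq.2.1 hq.2.2.1 h0)

end

universe u
variable {α : Type u} [Fintype α] [DecidableEq α] {G : Subgroup (Perm α)} {m : ℕ}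

theorem alt_of_reg (ht : IsMultiplyPretransitive G α (m + 1)) (ho : Od G α m) {Ψ : Finset α} (hΨ : Ψ.card = m)
    (h3 : 3 ≤ m) {a : α} (ha : a ∉ Ψ) (F : Subgroup G) (hF : ∀ f ∈ F, ∀ x ∈ Ψ, f • x = x)
    (tr : ∀ b ∉ Ψ, ∃ f ∈ F, f • a = b) (reg : ∀ f ∈ F, f • a = a → f = 1)
    (hN : stabilizer G Ψ ≤ Subgroup.normalizer (F : Set G)) : alternatingGroup α ≤ G := by
  have hc : (insert a Ψ).card = m + 1 := by rw [card_insert_of_notMem ha, hΨ]
  have key : ∀ p ∈ Ψ, ∀ q ∈ Ψ, p ≠ q → ∃ z : G, (∀ x ∈ insert a Ψ, z • x = swap p q x) ∧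
      ∀ f ∈ F, z * f = f⁻¹ * z := fun p hp q hq pq => by
    obtain ⟨z, z1, z2⟩ := exists_inv ht (fun g s h => ho g s (by omega)) hc (mem_insert_of_mem hp)
      (mem_insert_of_mem hq)
    have z3 : z • a = a := (z2 a (mem_insert_self _ _)).trans
      (swap_apply_of_ne_of_ne (fun e => ha (e ▸ hp)) fun e => ha (e ▸ hq))
    have z4 : z ∈ Subgroup.normalizer (F : Set G) := hN (mem_stabilizer_finset'.2 fun x hx =>
      z2 x (mem_insert_of_mem hx) ▸ mem_of_supp (swap_supp hp hq) hx)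
    have z5 : ∀ b ∉ Ψ, z • b = b → b = a := fun b hb e => by_contra fun k => by
      have := ho.inv (z := z) (s := insert b (insert a Ψ \ {p, q})) (by
        rw [card_insert_of_notMem (by simp [k, hb]), card_sdiff_of_subset (insert_subset (mem_insert_of_mem hp)
          (singleton_subset_iff.2 (mem_insert_of_mem hq))), card_pair pq]
        omega) (fun x hx => by
          rcases mem_insert.1 hx with rfl | hx
          · exact e
          · simp only [mem_sdiff, mem_insert (b := p), mem_singleton, not_or] at hx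
            rw [z2 x hx.1, swap_apply_of_ne_of_ne hx.2.1 hx.2.2]) z1
      exact pq (by simpa [this] using z2 p (mem_insert_of_mem hp))
    refine ⟨z, z2, fun f hf => ?_⟩
    have := congrArg Subtype.val (congrFun (MonoidHom.FixedPointFree.coe_eq_inv_of_involutive
      (φ := F.normalizerMonoidHom ⟨z, z4⟩) (fun f e => Subtype.ext (reg f f.2 (z5 _ (fun k => ha
        (smul_left_cancel _ (hF f f.2 _ k) ▸ k)) (by
          rw [← mul_smul, ← mul_inv_eq_iff_eq_mul.1 (congrArg Subtype.val e) |>.symm, mul_smul, z3]))))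
      fun f => Subtype.ext (show z * (z * f * z⁻¹) * z⁻¹ = f by
        rw [inv_eq_of_mul_eq_one_right z1, ← mul_assoc, ← mul_assoc, z1, mul_assoc, z1]; simp)) ⟨f, hf⟩)
    exact mul_inv_eq_iff_eq_mul.1 this
  obtain ⟨u, v, w, hu, hv, hw, uv, uw, vw⟩ := two_lt_card_iff.1 (by omega : 2 < Ψ.card)
  obtain ⟨y, y1, y2⟩ := key u hu v hv uv
  obtain ⟨z, z1, z2⟩ := key u hu w hw uw
  have two : IsMultiplyPretransitive G α 2 := isMultiplyPretransitive_of_le (n := m + 1) (by omega)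
    (by rw [Nat.card_eq_fintype_card, ← hc]; exact card_le_univ _)
  suffices e : (y * z).1 = swap u v * swap u w from
    alternatingGroup_le_of_isPreprimitive_of_isThreeCycle_mem (isPreprimitive_of_is_two_pretransitive two)
      (isThreeCycle_swap_mul_swap_same uv uw vw) (e ▸ (y * z).2)
  have k : ∀ x ∈ insert a Ψ, (y * z) • x = (swap u v * swap u w) x := fun x hx => by
    rw [mul_smul, z1 x hx, y1 _ (mem_of_supp (swap_supp (mem_insert_of_mem hu) (mem_insert_of_mem hw)) hx), mul_apply]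
  have k2 : ∀ b ∉ Ψ, (swap u v * swap u w) b = b := fun b hb => by
    rw [mul_apply, swap_apply_of_ne_of_ne (ne_of_mem_of_not_mem hu hb).symm (ne_of_mem_of_not_mem hw hb).symm,
      swap_apply_of_ne_of_ne (ne_of_mem_of_not_mem hu hb).symm (ne_of_mem_of_not_mem hv hb).symm]
  ext x
  by_cases hx : x ∈ Ψ
  · exact k x (mem_insert_of_mem hx)
  obtain ⟨f, hf, rfl⟩ := tr x hx
  change (y * z) • f • a = _
  rw [k2 _ hx, ← mul_smul, mul_assoc, z2 f hf, ← mul_assoc, y2 _ (inv_mem hf), inv_inv, mul_assoc, mul_smul,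
    k a (mem_insert_self _ _), k2 a ha]

theorem alt_of_sh (h3 : 3 ≤ m) (hm : m < Fintype.card α) (ht : IsMultiplyPretransitive G α (m + 1))
    (hs : Sh G α (m + 2)) (ho : Od G α m) : alternatingGroup α ≤ G := by
  obtain ⟨Ψ, -, hΨ⟩ := exists_subset_card_eq (s := (univ : Finset α)) (n := m) (by rw [card_univ]; omega)
  obtain ⟨a, -, ha⟩ := exists_mem_notMem_of_card_lt_card (s := Ψ) (t := univ) (by rw [card_univ]; omega)
  let L := fixingSubgroup G (Ψ : Set α)
  have hc : ∀ g x : L, x ∈ MulAut.conj g • stabilizer L a ↔ x • g • a = g • a := fun g x => by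
    rw [Subgroup.mem_pointwise_smul_iff_inv_smul_mem, mem_stabilizer_iff]
    simp only [← map_inv, MulAut.smul_def, MulAut.conj_apply, inv_inv, mul_smul]
    rw [inv_smul_eq_iff]
  have out : ∀ g : L, ∀ b ∉ Ψ, g • b ∉ Ψ := fun g b hb k =>
    hb (smul_left_cancel g.1 (mem_fixing_finset.1 g.2 _ k) ▸ k)
  have tr : ∀ b ∉ Ψ, ∃ g : L, g • a = b := fun b hb =>
    let ⟨g, h1, h2⟩ := exists_fixing_smul ht (by rw [Nat.card_eq_fintype_card]; omega) Ψ (by omega) ha hb
    ⟨⟨g, mem_fixing_finset.2 h1⟩, h2⟩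
  obtain ⟨N, h1, -, h2⟩ := H5.frobenius_kernel (stabilizer L a) fun g hg => eq_bot_iff.2 fun x hx =>
    Subtype.ext (hs x.1 (insert a (insert (g • a) Ψ)) (by
      rw [card_insert_of_notMem (by simp [ha, Ne.symm hg]), card_insert_of_notMem (out g a ha), hΨ]) fun y hy => by
        rcases mem_insert.1 hy with rfl | hy
        · exact hx.1
        rcases mem_insert.1 hy with rfl | hy
        · exact (hc g x).1 hx.2
        · exact mem_fixing_finset.1 x.2 y hy)
  have mem : ∀ f : G, f ∈ N.map L.subtype ↔ (∀ x ∈ Ψ, f • x = x) ∧ (f = 1 ∨ ∀ b ∉ Ψ, f • b ≠ b) := fun f => by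
    refine ⟨?_, fun ⟨k1, k2⟩ => ⟨⟨f, mem_fixing_finset.2 k1⟩, h1.ge (k2.imp Subtype.ext
      fun k g e => k _ (out g a ha) ((hc g _).1 e)), rfl⟩⟩
    rintro ⟨f, hf, rfl⟩
    refine ⟨mem_fixing_finset.1 f.2, (h1.le hf).imp (congrArg Subtype.val) fun k b hb e => ?_⟩
    obtain ⟨g, rfl⟩ := tr b hb
    exact k g ((hc g f).2 e)
  refine alt_of_reg ht ho hΨ h3 ha (N.map L.subtype) (fun f hf => ((mem f).1 hf).1) (fun b hb => ?_)
    (fun f hf e => ((mem f).1 hf).2.resolve_right fun k => k a ha e) fun z hz => ?_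
  · obtain ⟨g, rfl⟩ := tr b hb
    obtain ⟨⟨n, h⟩, rfl⟩ := h2.2 g
    exact ⟨n.1, ⟨n, n.2, rfl⟩, by rw [mul_smul, h.2]; rfl⟩
  · have hz' := mem_stabilizer_finset.1 (inv_mem hz)
    refine Subgroup.mem_normalizer_fintype fun f hf => (mem _).2 ⟨fun x hx => ?_, ((mem f).1 hf).2.imp
      (fun e => by simp [e]) fun k b hb e => k (z⁻¹ • b) (fun k => hb ((hz' b).1 k)) ?_⟩
    · rw [mul_smul, mul_smul, ((mem f).1 hf).1 _ ((hz' x).2 hx), smul_inv_smul]
    · rwa [mul_smul, mul_smul, smul_eq_iff_eq_inv_smul] at e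

theorem tri (h4 : 4 ≤ m) (hm : m < Fintype.card α) (ht : IsMultiplyPretransitive G α m) (hs : Sh G α (m + 1)) :
    (∃ Δ : Finset α, Δ.card = m + 1 ∧ Full G Δ) ∨ alternatingGroup α ≤ G := by
  obtain ⟨m, rfl⟩ : ∃ j, m = j + 1 := ⟨m - 1, by omega⟩
  by_cases h : ∀ (z : G) (s : Finset α), m + 1 ≤ s.card → (∀ x ∈ s, z • x = x) → z * z = 1 → z = 1
  swap
  · push Not at h
    obtain ⟨z, s, h1, h2, h3, h5⟩ := h
    obtain ⟨Γ, h6, hΓ⟩ := exists_subset_card_eq h1
    obtain ⟨Δ, -, hΔ⟩ := exists_subset_card_eq (s := (univ : Finset α)) (n := m + 2) (by rw [card_univ]; omega)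
    exact .inl ⟨Δ, hΔ, full_of_even ht hs h5 h3 hΓ (fun x hx => h2 x (h6 hx)) hΔ⟩
  rcases Nat.even_or_odd (Fintype.card α - (m + 1)) with ⟨j, e⟩ | e
  · refine .inr (alt_of_sh (by omega) (by omega) ht hs (od_of fun z s h1 h2 h3 => h z z.1.supportᶜ ?_
      (fun x hx => notMem_support.1 (mem_compl.1 hx)) h3))
    have k1 := card_compl_support_modEq (p := 2) (n := 1) (σ := z.1) (by simpa [sq] using congrArg Subtype.val h3)
    have k2 : s.card ≤ z.1.supportᶜ.card := card_le_card fun x hx => mem_compl.2 (notMem_support.2 (h2 x hx))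
    rw [Nat.ModEq] at k1
    omega
  · exact .inl (full_of_odd h4 ht hs (od_of h) e)

theorem exists_alt (h4 : 4 ≤ m) (n : ℕ) : ∀ {α : Type u} [Fintype α] [DecidableEq α] (G : Subgroup (Perm α)),
    Fintype.card α = n → m < n → IsMultiplyPretransitive G α m → ∃ Δ : Finset α, Δ.card = m + 1 ∧ Alt G Δ := by
  classical
  induction n using Nat.strong_induction_on with
  | _ n ih =>
  intro α _ _ G hn hm ht
  by_cases hs : Sh G α (m + 1)
  · rcases tri h4 (hn ▸ hm) ht hs with ⟨Δ, h1, h2⟩ | h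
    · exact ⟨Δ, h1, fun π h _ => h2 π h⟩
    · obtain ⟨Δ, -, hΔ⟩ := exists_subset_card_eq (s := (univ : Finset α)) (n := m + 1) (by rw [card_univ]; omega)
      exact ⟨Δ, hΔ, fun π _ k => ⟨⟨π, h k⟩, fun _ _ => rfl⟩⟩
  simp only [Sh, not_forall] at hs
  obtain ⟨g, s, h1, h2, h3⟩ := hs
  obtain ⟨p, hp, h5⟩ := Nat.exists_prime_and_dvd (orderOf_eq_one_iff.not.2 h3)
  have := Fact.mk hp
  obtain ⟨P₀, hP₀⟩ := H2.exists_sylIn p (fixingSubgroup G (s : Set α))
  have big : ∀ R : Subgroup G, (∀ u ∈ R, ∀ x ∈ s, u • x = x) → m + 1 ≤ (fixedPoints R α).ncard := fun R h =>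
    h1.trans ((Set.ncard_coe_finset s).ge.trans (Set.ncard_le_ncard fun x hx u => h u u.2 x hx))
  obtain ⟨Q, ⟨Q1, Q2⟩, Q3⟩ := Set.exists_max_image {R : Subgroup G | IsPGroup p R ∧ m + 1 ≤ (fixedPoints R α).ncard}
    (fun R => Nat.card R) (Set.toFinite _) ⟨P₀, hP₀.isPGroup, big _ fun u hu => mem_fixing_finset.1 (hP₀.le hu)⟩
  have Q4 : Q ≠ ⊥ := fun e => by
    have := Q3 P₀ ⟨hP₀.isPGroup, big _ fun u hu => mem_fixing_finset.1 (hP₀.le hu)⟩
    rw [e, Subgroup.card_bot, Subgroup.card_le_one_iff_eq_bot, hP₀.eq_bot_iff] at this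
    exact this (h5.trans (Subgroup.orderOf_dvd_natCard _ (mem_fixing_finset.2 h2)))
  let N := Subgroup.normalizer (Q : Set G)
  let Φ : SubMulAction N α := subAct N (fixedPoints Q α) fun g hg x hx u =>
    smul_fixed_of_mem_normalizer hg (fun u hu => hx ⟨u, hu⟩) u u.2
  have c1 : Fintype.card Φ = (fixedPoints Q α).ncard := Nat.card_eq_fintype_card.symm
  have c2 : Fintype.card Φ < n := by
    obtain ⟨u, hu⟩ := Subgroup.ne_bot_iff_exists_ne_one.1 Q4
    obtain ⟨x, hx⟩ := exists_smul_ne (α := α) (g := u.1) fun e => hu (Subtype.ext e)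
    exact hn ▸ Fintype.card_subtype_lt (x := x) fun k => hx (k u)
  have tN : IsMultiplyPretransitive N Φ m := by
    by_cases h : ∃ Γ : Finset Φ, Γ.card = m ∧
      H2.SylIn p Q (fixingSubgroup G (Γ.map (Function.Embedding.subtype _) : Set α))
    · obtain ⟨Γ, k1, k2⟩ := h
      have k3 : ∀ y : Fin m ↪ Φ, ∃ g : N, g • ((Γ.equivFinOfCardEq k1).symm.toEmbedding.trans
          (Function.Embedding.subtype _) : Fin m ↪ Φ) = y := fun y => by
        obtain ⟨g, hg⟩ := ht.exists_smul_eq (((Γ.equivFinOfCardEq k1).symm.toEmbedding.trans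
          (Function.Embedding.subtype _)).trans (Function.Embedding.subtype _)) (y.trans (Function.Embedding.subtype _))
        have k4 : ∀ x : Γ, g • x.1.1 = (y (Γ.equivFinOfCardEq k1 x)).1 := fun x => by
          simpa using DFunLike.congr_fun hg (Γ.equivFinOfCardEq k1 x)
        obtain ⟨w, w1, w2⟩ := exists_normalizer_agree k2 g fun x hx u hu => by
          obtain ⟨x, hx', rfl⟩ := mem_map.1 (mem_coe.1 hx)
          have := k4 ⟨x, hx'⟩
          simp only [Function.Embedding.coe_subtype] at this ⊢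
          rw [this]
          exact (y _).2 ⟨u, hu⟩
        refine ⟨⟨w, w1⟩, Function.Embedding.ext fun i => Subtype.ext ?_⟩
        exact (w2 _ (mem_coe.2 (mem_map_of_mem _ ((Γ.equivFinOfCardEq k1).symm i).2))).trans
          ((k4 _).trans (by simp))
      exact ⟨fun x y => let ⟨a, e1⟩ := k3 x; let ⟨b, e2⟩ := k3 y; ⟨b * a⁻¹, by rw [← e1, ← e2]; simp [mul_smul]⟩⟩
    refine gleason hp (by omega) (by omega) fun Γ k1 => ?_
    have k2 : Q ≤ fixingSubgroup G (Γ.map (Function.Embedding.subtype _) : Set α) := fun u hu =>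
      mem_fixing_finset.2 fun x hx => by
        obtain ⟨x, -, rfl⟩ := mem_map.1 hx
        exact x.2 ⟨u, hu⟩
    obtain ⟨P, k3, hP⟩ := H2.exists_sylIn_ge Q1 k2
    have k4 := H2.lt_normalizer_inf_of_nilpotent hP.isPGroup.isNilpotent
      (k3.lt_of_ne fun e => h ⟨Γ, k1, e ▸ hP⟩)
    refine ⟨P.subgroupOf N, hP.isPGroup.comap_subtype, fun x => ⟨fun k => by_contra fun hx => ?_, fun k u hu =>
      Subtype.ext (mem_fixing_finset.1 (hP.le hu) _ (mem_map_of_mem _ k))⟩⟩
    refine (Q3 _ ⟨hP.isPGroup.to_inf_right, ?_⟩).not_gt (H2.card_lt_of_lt k4)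
    have : ((insert x Γ).map (Function.Embedding.subtype _) : Set α) ⊆ fixedPoints (N ⊓ P : Subgroup G) α := by
      intro y hy u
      obtain ⟨y, hy', rfl⟩ := mem_map.1 (mem_coe.1 hy)
      rcases mem_insert.1 hy' with rfl | hy'
      · exact congrArg Subtype.val (k ⟨u.1, u.2.1⟩ u.2.2)
      · exact mem_fixing_finset.1 (hP.le u.2.2) _ (mem_map_of_mem _ hy')
    have := Set.ncard_le_ncard this
    rwa [Set.ncard_coe_finset, card_map, card_insert_of_notMem hx, k1] at this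
  obtain ⟨Δ, d1, d2⟩ := ih _ c2 (toPermHom N Φ).range rfl (by omega) ⟨fun x y =>
    let ⟨g, e⟩ := tN.exists_smul_eq x y; ⟨⟨_, g, rfl⟩, e⟩⟩
  refine ⟨Δ.map (Function.Embedding.subtype _), by rw [card_map, d1], fun π k1 k2 => ?_⟩
  have k3 : ∀ x, π x ≠ x → x ∈ Φ := fun x hx => by
    obtain ⟨y, -, rfl⟩ := mem_map.1 (k1 (mem_support.2 hx))
    exact y.2
  have k4 : ∀ x, π x ∈ Φ ↔ x ∈ Φ := fun x => by
    by_cases e : π x = x
    · rw [e]
    · exact iff_of_true (k3 _ (π.injective.ne e)) (k3 x e)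
  obtain ⟨⟨_, g, rfl⟩, hg⟩ := d2 (π.subtypePerm k4) (fun x hx => (mem_map' _).1
    (k1 (mem_support.2 fun e => mem_support.1 hx (Subtype.ext e)))) ((sign_subtypePerm π k4 k3).trans k2)
  refine ⟨g.1, fun x hx => ?_⟩
  obtain ⟨y, hy, rfl⟩ := mem_map.1 hx
  exact congrArg Subtype.val (hg y hy)

end H16.LW
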