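import Cfsg.Agent.H16.LW1
import Cfsg.Agent.H16.OddOrder
import Cfsg.Agent.H29.SylN
import Cfsg.Agent.H1.Basic

/-! The Livingstone–Wagner theorems: `core` (homogeneous but not transitive groups), `pred_trans`, `trans_of_homog`. -/

set_option autoImplicit false
set_option linter.unusedSectionVars false

namespace H16.LW
open MulAction Equiv Equiv.Perm Finset
open scoped Pointwise Nat

theorem comm154 {L : Type*} [Group L] (h : Nat.card L = 154) {x : L} (hx : orderOf x = 7) :
    ∃ y : L, orderOf y = 11 ∧ y * x = x * y := by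
  have : Finite L := Nat.finite_of_card_ne_zero (by omega)
  have := Fact.mk Nat.prime_eleven
  obtain ⟨y, hy⟩ := exists_prime_orderOf_dvd_card' (G := L) 11 (by rw [h]; norm_num)
  have c : Nat.card (Subgroup.zpowers y) = 11 := by rw [Nat.card_zpowers, hy]
  have i := (Subgroup.zpowers y).card_mul_index
  rw [c, h] at i
  let P := (IsPGroup.of_card (n := 1) (p := 11) c).toSylow (by omega)
  have h1 := card_sylow_modEq_one 11 L
  have h2 : _ ∣ 14 := (show (Subgroup.zpowers y).index = 14 by omega) ▸ P.card_dvd_index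
  have h3 := Nat.le_of_dvd (by omega) h2
  have h4 : Nat.card (Sylow 11 L) = 1 := by
    rw [Nat.ModEq] at h1
    generalize Nat.card (Sylow 11 L) = j at *
    interval_cases j <;> omega
  rw [P.card_eq_index_normalizer, Subgroup.index_eq_one] at h4
  exact ⟨y, hy, H29.mem_cent_of_coprime (Subgroup.zpowers y) (c ▸ Nat.prime_eleven) (h4.ge trivial)
    (by rw [hx, c]; norm_num) y (Subgroup.mem_zpowers y)⟩

set_option synthInstance.maxSize 2000 in
theorem arith : ∀ m < 4, ∀ N < 120, ∀ t < 25, (1 ≤ m ∧ N > 0 ∧ t ∣ (m + 1)! ∧ t ≠ 1 ∧ t * (N + 1) ∣ (m + 2)! ∧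
    (N + 2) / t * t = N + 2 ∧ ¬2 ∣ (N + 2) / t ∧ (3 ∣ (N + 2) / t → 3 * (t * (N + 1)) ∣ (m + 2)!) ∧
    (m = 3 → N = 19 → (N + 2) / t ≠ 7) ∧ (m = 3 → N = 2 → (N + 2) / t ≠ 1)) →
    m + (N + 2) = 5 ∧ m + 2 = 4 ∧ (m + (N + 2)).descFactorial m * ((N + 2) / t) = 20 ∨
    m + (N + 2) = 6 ∧ m + 2 = 5 ∧ (m + (N + 2)).descFactorial m * ((N + 2) / t) = 120 ∨
    m + (N + 2) = 9 ∧ m + 2 = 5 ∧ ((m + (N + 2)).descFactorial m * ((N + 2) / t) = 504 ∨
      (m + (N + 2)).descFactorial m * ((N + 2) / t) = 1512) := by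
  decide +kernel

variable {α : Type*} [Fintype α] [DecidableEq α] {G : Subgroup (Perm α)} {m : ℕ}

theorem card_stab (h : Homog G α m) {s : Finset α} (hs : s.card = m) :
    (Fintype.card α).choose m * Nat.card (stabilizer G s) = Nat.card G := by
  rw [← (stabilizer G s).index_mul_card, index_stabilizer, ← card_univ, ← card_powersetCard, ← Set.ncard_coe_finset]
  congr 2
  ext t
  simp only [mem_coe, mem_powersetCard, subset_univ, true_and]
  exact ⟨fun k => h s t hs k, fun ⟨g, e⟩ => by rw [← e, card_smul_finset, hs]⟩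

theorem stab_dvd (h : Sh G α m) {s : Finset α} (hs : m ≤ s.card) : Nat.card (stabilizer G s) ∣ s.card ! := by
  let Φ := subAct (stabilizer G s) (s : Set α) fun g hg x hx => (mem_stabilizer_finset.1 hg x).2 hx
  have := Subgroup.card_dvd_of_injective (toPermHom (stabilizer G s) Φ) ((injective_iff_map_eq_one _).2 fun g e =>
    Subtype.ext (h _ s hs fun x hx => congrArg Subtype.val (DFunLike.congr_fun e (⟨x, hx⟩ : Φ))))
  rwa [Nat.card_perm, show Nat.card Φ = s.card from Set.ncard_coe_finset s] at this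

theorem trans_of_alt (h : alternatingGroup α ≤ G) (hm : m + 2 ≤ Fintype.card α) : IsMultiplyPretransitive G α m := by
  have := alternatingGroup.isMultiplyPretransitive α
  have : IsMultiplyPretransitive (alternatingGroup α) α m :=
    isMultiplyPretransitive_of_le (n := Nat.card α - 2) (by rw [Nat.card_eq_fintype_card]; omega) (by omega)
  exact ⟨fun x y => let ⟨g, e⟩ := this.exists_smul_eq x y; ⟨⟨g.1, h g.2⟩, e⟩⟩

theorem core (h1 : 1 ≤ m) (hm : m + 2 ≤ Fintype.card α) (ht : IsMultiplyPretransitive G α m)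
    (hn : ¬ IsMultiplyPretransitive G α (m + 1)) (H1 : Homog G α (m + 1)) (H2 : Homog G α (m + 2)) :
    (m + 2 = Fintype.card α ∧ G = alternatingGroup α) ∨ (Fintype.card α = 5 ∧ m + 2 = 4 ∧ Nat.card G = 20) ∨
    (Fintype.card α = 6 ∧ m + 2 = 5 ∧ Nat.card G = 120) ∨
    (Fintype.card α = 9 ∧ m + 2 = 5 ∧ (Nat.card G = 504 ∨ Nat.card G = 1512)) := by
  have ex : ∀ j ≤ Fintype.card α, ∃ s : Finset α, s.card = j := fun j hj =>
    (exists_subset_card_eq (s := (univ : Finset α)) hj).imp fun _ h => h.2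
  have eq : ∀ j, Homog G α j → ∀ s t : Finset α, s.card = j → t.card = j →
      Nat.card (fixingSubgroup G (t : Set α)) = Nat.card (fixingSubgroup G (s : Set α)) := fun j H s t a b =>
    let ⟨g, e⟩ := H t s b a; card_fixingSubgroup_eq_of_smul g (by rw [← e, coe_smul_finset]; rfl)
  have hs : Sh G α (m + 1) := fun g s k1 k2 => by
    obtain ⟨t, k3, k4⟩ := exists_subset_card_eq k1
    obtain ⟨u, k5⟩ := ex _ hm
    have := mt (fun k => pred_transitive_of_card (by omega) (by omega) _ _ k (fun s => eq _ H1 t s k4)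
      fun s => eq _ H2 u s k5) hn
    exact Subgroup.mem_bot.1 ((Subgroup.card_le_one_iff_eq_bot _).1 (not_lt.1 this) ▸
      mem_fixing_finset.2 fun x hx => k2 x (k3 hx))
  obtain ⟨N, hN⟩ : ∃ N, Fintype.card α = m + (N + 2) := ⟨Fintype.card α - m - 2, by omega⟩
  obtain ⟨Γ, hΓ⟩ := ex m (by omega)
  obtain ⟨Δ, hΔ⟩ := ex (m + 1) (by omega)
  have hG := card_eq_descFactorial_mul ht Γ hΓ
  rw [Nat.card_eq_fintype_card (α := α)] at hG
  have pos := Nat.descFactorial_pos.2 (show m ≤ Fintype.card α by omega)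
  have nf := fun h => hn (hΔ ▸ trans_of_full (hΔ ▸ H1) h)
  obtain ⟨t, e1⟩ := stab_dvd hs hΔ.ge
  have t1 : t ∣ (m + 1)! := hΔ ▸ Dvd.intro_left _ e1.symm
  have e2 : Nat.card (fixingSubgroup G (Γ : Set α)) * t = N + 2 := by
    refine Nat.eq_of_mul_eq_mul_left pos ?_
    rw [← mul_assoc, ← hG, ← card_stab H1 hΔ, mul_assoc, ← e1, hΔ, mul_comm, ← Nat.descFactorial_eq_factorial_mul_choose,
      Nat.descFactorial_succ, mul_comm, hN, Nat.add_sub_cancel_left]
  have e3 : ∀ s : Finset α, s.card = m + 2 → t * (N + 1) * Nat.card (stabilizer G s) = (m + 2)! := fun s k => by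
    have := card_stab H2 k
    refine Nat.eq_of_mul_eq_mul_left (Nat.choose_pos hm) ?_
    have e : (Fintype.card α).choose (m + 2) * (m + 2)! = (N + 1) * ((N + 2) * (Fintype.card α).descFactorial m) := by
      rw [mul_comm, ← Nat.descFactorial_eq_factorial_mul_choose, Nat.descFactorial_succ, Nat.descFactorial_succ]
      congr 2 <;> omega
    rw [e, ← e2, mul_left_comm, this, hG]
    ring
  have out : ∀ g : G, (∀ x ∈ Γ, g • x = x) → ∀ b ∉ Γ, g • b ∉ Γ := fun g h b hb k =>
    hb (smul_left_cancel g (h _ k) ▸ k)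
  have mv : ∀ g : G, (∀ x ∈ Γ, g • x = x) → ∀ b ∉ Γ, g • b = b → g = 1 := fun g h b hb e =>
    hs g (insert b Γ) (by rw [card_insert_of_notMem hb, hΓ]) (by simpa [e] using h)
  have t2 : t ≠ 1 := fun e => hn (isMultiplyPretransitive_succ_of_fixing_one ht Γ hΓ fun a b ha hb => by
    have k := card_fixing_insert_mul (G := G) Γ a
    rw [Subgroup.card_eq_one.2 (eq_bot_iff.2 fun g hg => hs g _ (by rw [card_insert_of_notMem ha, hΓ])
      (mem_fixing_finset.1 hg)), one_mul] at k
    have := Set.eq_of_subset_of_ncard_le (s := orbit (fixingSubgroup G (Γ : Set α)) a) (t := (Γᶜ : Finset α))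
      (fun _ ⟨g, e⟩ => mem_coe.2 (mem_compl.2 (e ▸ out g (mem_fixing_finset.1 g.2) a ha)))
      (by rw [Set.ncard_coe_finset, card_compl, k]; subst e; omega)
    obtain ⟨g, e⟩ := this.ge (mem_coe.2 (mem_compl.2 hb))
    exact ⟨g, mem_fixing_finset.1 g.2, e⟩)
  have el : ∀ p, p.Prime → p ∣ Nat.card (fixingSubgroup G (Γ : Set α)) →
      ∃ g : G, orderOf g = p ∧ g ≠ 1 ∧ ∀ x ∈ Γ, g • x = x := fun p hp k => by
    have := Fact.mk hp
    obtain ⟨g, hg⟩ := exists_prime_orderOf_dvd_card' p k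
    exact ⟨g, by simpa using hg, fun e => hp.ne_one (by rw [← hg, orderOf_eq_one_iff]; exact Subtype.ext e),
      mem_fixing_finset.1 g.2⟩
  have d2 : ¬ 2 ∣ Nat.card (fixingSubgroup G (Γ : Set α)) := fun k => by
    obtain ⟨z, z1, z2, z3⟩ := el 2 Nat.prime_two k
    obtain ⟨m, rfl⟩ : ∃ j, m = j + 1 := ⟨m - 1, by omega⟩
    exact nf (full_of_even ht hs z2 (by rw [← sq, ← z1, pow_orderOf_eq_one]) hΓ z3 hΔ)
  have d3 : 3 ∣ Nat.card (fixingSubgroup G (Γ : Set α)) → 3 * (t * (N + 1)) ∣ (m + 2)! := fun k => by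
    obtain ⟨x, x1, x2, x3⟩ := el 3 Nat.prime_three k
    obtain ⟨a, ha⟩ := exists_smul_ne (α := α) x2
    have aΓ : a ∉ Γ := fun h => ha (x3 a h)
    obtain ⟨c, hc⟩ := card_pos.1 (show 0 < Γ.card by omega)
    have x4 : x • x • x • a = a := by rw [← mul_smul, ← mul_smul, ← pow_three', ← x1, pow_orderOf_eq_one, one_smul]
    have n1 : x • x • a ≠ x • a := fun e => ha (smul_left_cancel x e)
    have n2 : x • x • a ≠ a := fun e => ha (by rwa [e] at x4)
    have o1 := out x x3 a aΓ
    have o2 := out x x3 _ o1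
    rw [← e3 (insert a (insert (x • a) (insert (x • x • a) (Γ.erase c)))) (by
      rw [card_insert_of_notMem (by simp [ha.symm, n2.symm, aΓ]), card_insert_of_notMem (by simp [n1.symm, o1]),
        card_insert_of_notMem (by simp [o2]), card_erase_of_mem hc]; omega), mul_comm, ← x1]
    refine Nat.mul_dvd_mul_left _ (Subgroup.orderOf_dvd_natCard _ (mem_stabilizer_finset'.2 fun y hy => ?_))
    simp only [mem_insert] at hy ⊢
    rcases hy with rfl | rfl | rfl | hy
    · simp
    · simp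
    · exact .inl x4
    · simp [x3 y (mem_of_mem_erase hy), hy]
  have d7 : m = 3 → N = 19 → Nat.card (fixingSubgroup G (Γ : Set α)) ≠ 7 := fun k1 k2 k3 => by
    obtain ⟨x, x1, x2, x3⟩ := el 7 (by norm_num) k3.symm.dvd
    obtain ⟨c, hc⟩ := card_pos.1 (show 0 < Γ.card by omega)
    have := card_eq_descFactorial_mul (G := G) (isMultiplyPretransitive_of_le (n := m) (m := 2) (by omega)
      (by rw [Nat.card_eq_fintype_card]; omega)) (Γ.erase c) (by rw [card_erase_of_mem hc]; omega)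
    rw [hG, k3, Nat.card_eq_fintype_card (α := α), hN, k1, k2] at this
    obtain ⟨y, y1, y2⟩ := comm154 (L := fixingSubgroup G (Γ.erase c : Set α)) (by simp [Nat.descFactorial, -coe_erase] at this; omega)
      (x := ⟨x, mem_fixing_finset.2 fun z hz => x3 z (mem_of_mem_erase hz)⟩) (by simpa using x1)
    have y3 := mem_fixing_finset.1 y.2
    have y4 : y.1 • c ∈ Γ := by_contra fun h => x2 (mv x x3 _ h (by
      rw [← mul_smul, ← show y.1 * x = x * y.1 from congrArg Subtype.val y2, mul_smul, x3 c hc]))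
    have y5 : y.1 • c = c := by_contra fun h => h (by
      rw [smul_left_cancel _ (y3 _ (mem_erase.2 ⟨h, y4⟩))])
    have := Subgroup.orderOf_dvd_natCard (fixingSubgroup G (Γ : Set α)) (x := y.1) (mem_fixing_finset.2 fun z hz => by
      by_cases e : z = c
      · rw [e, y5]
      · exact y3 z (mem_erase.2 ⟨e, hz⟩))
    rw [k3, Subgroup.orderOf_coe, y1] at this
    omega
  have d1 : m = 3 → N = 2 → Nat.card (fixingSubgroup G (Γ : Set α)) ≠ 1 := fun k1 k2 k3 => by
    subst k1 k2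
    obtain ⟨p, j, hp, hj, e⟩ := sharp3_card (by rw [Nat.card_eq_fintype_card]; omega) ht fun g a b c ab ac bc h1 h2 h3 => by
      have := card_fixingSubgroup_eq ht Γ {a, b, c} hΓ (card_eq_three.2 ⟨a, b, c, ab, ac, bc, rfl⟩)
      exact Subgroup.mem_bot.1 (Subgroup.card_eq_one.1 (this.symm.trans k3) ▸ mem_fixing_finset.2 (by simp [h1, h2, h3]))
    rw [Nat.card_eq_fintype_card, hN] at e
    have e : p ^ j = 6 := by omega
    have h2 := (Nat.prime_dvd_prime_iff_eq Nat.prime_two hp).1 (Nat.prime_two.dvd_of_dvd_pow (n := j) (by omega))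
    have h3 := (Nat.prime_dvd_prime_iff_eq Nat.prime_three hp).1 (Nat.prime_three.dvd_of_dvd_pow (n := j) (by omega))
    omega
  rcases Nat.eq_zero_or_pos N with rfl | N0
  · refine .inl ⟨hN.symm, eq_alternatingGroup_of_index_eq_two ?_⟩
    have k := G.index_mul_card
    have : Nat.card (fixingSubgroup G (Γ : Set α)) = 1 := by
      rcases (Nat.dvd_prime Nat.prime_two).1 (Dvd.intro _ e2) with h | h
      · exact h
      · exact absurd h.symm.dvd d2
    rw [hG, this, Nat.card_perm, Nat.card_eq_fintype_card, ← Nat.factorial_mul_descFactorial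
      (show m ≤ Fintype.card α by omega), mul_one, show Fintype.card α - m = 2 by omega] at k
    exact Nat.eq_of_mul_eq_mul_right pos k
  by_cases h4 : 4 ≤ m
  · rcases tri h4 (by omega) ht hs with ⟨Δ, k1, k2⟩ | k
    · exact absurd (k1 ▸ trans_of_full (k1 ▸ H1) k2) hn
    · exact absurd (trans_of_alt k (by omega)) hn
  obtain ⟨s, k⟩ := ex _ hm
  have e4 : t * (N + 1) ∣ (m + 2)! := Dvd.intro _ (e3 s k)
  rw [hG, hN]
  generalize Nat.card (fixingSubgroup G (Γ : Set α)) = d at *
  have b0 := Nat.pos_of_dvd_of_pos t1 (Nat.factorial_pos _)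
  have b1 := (Nat.le_of_dvd (Nat.factorial_pos _) t1).trans (Nat.factorial_le (show m + 1 ≤ 4 by omega))
  have b2 := ((Nat.le_mul_of_pos_left _ b0).trans (Nat.le_of_dvd (Nat.factorial_pos _) e4)).trans
    (Nat.factorial_le (show m + 2 ≤ 5 by omega))
  obtain rfl : d = (N + 2) / t := (Nat.div_eq_of_eq_mul_left b0 e2.symm).symm
  exact .inr (arith m (by omega) N b2 t (Nat.lt_succ_of_le b1) ⟨h1, N0, t1, t2, e4, e2, d2, d3, d7, d1⟩)

theorem pred_trans {k : ℕ} (hk : 2 * k ≤ Fintype.card α) (h : Homog G α k) (j : ℕ) (hj : j < k) :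
    IsMultiplyPretransitive G α j := by
  induction j with
  | zero => exact is_zero_pretransitive
  | succ m ih =>
  rcases Nat.eq_zero_or_pos m with rfl | h1
  · refine is_one_pretransitive_iff.2 ⟨fun a b => (h.of_le (j := 1) (by omega) (by omega) {a} {b} rfl rfl).imp fun g e => ?_⟩
    simpa using e
  by_contra hn
  have := core h1 (by omega) (ih (by omega)) hn (h.of_le (by omega) (by omega)) (h.of_le (by omega) (by omega))
  omega

theorem trans_of_homog (h3 : 3 ≤ m) (hk : 2 * (m + 2) ≤ Fintype.card α) (H : Homog G α (m + 2)) :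
    IsMultiplyPretransitive G α (m + 2) := by
  have ht := pred_trans hk H (m + 1) (by omega)
  obtain ⟨Δ, hΔ, hA⟩ := exists_alt (m := m + 1) (by omega) _ G rfl (by omega) ht
  replace hA : ∀ s : Finset α, s.card = m + 2 → Alt G s := fun s hs => let ⟨g, e⟩ := H Δ s hΔ hs; e ▸ hA.smul g
  have sp : ∀ {s : Finset α} {π ρ : Perm α}, π.support ⊆ s → ρ.support ⊆ s → (π * ρ).support ⊆ s := fun h1 h2 =>
    (support_mul_le _ _).trans (sup_le h1 h2)
  have cd : ∀ (s : Finset α) (a b : α), s.card = m → a ∉ s → b ∉ s → a ≠ b → (insert a (insert b s)).card = m + 2 :=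
    fun s a b h1 h2 h3 h4 => by rw [card_insert_of_notMem (by simp [h2, h4]), card_insert_of_notMem h3, h1]
  by_contra hn
  have ho : Od G α m := od_of fun z s h1 h2 h3 => by_contra fun h4 => by
    obtain ⟨s, h5, hs⟩ := exists_subset_card_eq h1
    replace h2 := fun x hx => h2 x (h5 hx)
    obtain ⟨a, ha⟩ := exists_smul_ne (α := α) h4
    have k1 : a ∉ s := fun k => ha (h2 a k)
    have k2 : z • a ∉ s := fun k => ha (smul_left_cancel z (h2 _ k))
    have k3 := cd s a _ hs k1 k2 ha.symm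
    have k4 := swap_supp (mem_insert_self a (insert (z • a) s)) (mem_insert_of_mem (mem_insert_self _ _))
    refine hn (k3 ▸ trans_of_full (k3 ▸ H) fun π hπ => (Int.units_eq_one_or (sign π)).elim (hA _ k3 π hπ) fun e => ?_)
    rw [← mul_swap_mul_self a (z • a) π]
    refine (hA _ k3 _ (sp hπ k4) (by simp [e, ha.symm])).mul ⟨z, fun x hx => ?_⟩ k4
    simp only [mem_insert] at hx
    rcases hx with rfl | rfl | hx
    · rw [swap_apply_left]
    · rw [swap_apply_right, ← mul_smul, h3, one_smul]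
    · rw [swap_apply_of_ne_of_ne (ne_of_mem_of_not_mem hx k1) (ne_of_mem_of_not_mem hx k2), h2 x hx]
  obtain ⟨Ψ, -, hΨ⟩ := exists_subset_card_eq (s := (univ : Finset α)) (n := m) (by rw [card_univ]; omega)
  let L := fixingSubgroup G (Ψ : Set α)
  have h2 : ∀ a ∉ Ψ, ∀ b ∉ Ψ, ∀ c ∉ Ψ, ∀ d ∉ Ψ, a ≠ b → c ≠ d →
      ∃ g ∈ L, g • a = c ∧ g • b = d ∨ g • b = c ∧ g • a = d := fun a ha b hb c hc d hd ab cd' => by
    have k1 := cd Ψ a b hΨ ha hb ab
    have ne : ∀ {x y : α}, x ∈ Ψ → y ∉ Ψ → x ≠ y := ne_of_mem_of_not_mem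
    obtain ⟨g, π, k2, k3⟩ := ind_of_homog (k1 ▸ H) (f := fun x => if x = a then c else if x = b then d else x)
      fun x hx y hy => by
        simp only [coe_insert, Set.mem_insert_iff, mem_coe] at hx hy
        grind
    have ma := mem_insert_self a (insert b Ψ)
    have mb := mem_insert_of_mem (b := a) (mem_insert_self b Ψ)
    have mx := fun x (hx : x ∈ Ψ) => mem_insert_of_mem (b := a) (mem_insert_of_mem (b := b) hx)
    rcases Int.units_eq_one_or (sign π) with e | e
    · obtain ⟨u, hu⟩ := hA _ k1 π k2 e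
      refine ⟨g * u, mem_fixing_finset.2 fun x hx => ?_, .inl ⟨?_, ?_⟩⟩
      · rw [mul_smul, hu x (mx x hx), k3 x (mx x hx), if_neg (ne hx ha), if_neg (ne hx hb)]
      · rw [mul_smul, hu a ma, k3 a ma, if_pos rfl]
      · rw [mul_smul, hu b mb, k3 b mb, if_neg ab.symm, if_pos rfl]
    · obtain ⟨u, hu⟩ := hA _ k1 _ (sp k2 (swap_supp ma mb)) (by simp [e, ab])
      refine ⟨g * u, mem_fixing_finset.2 fun x hx => ?_, .inr ⟨?_, ?_⟩⟩
      · rw [mul_smul, hu x (mx x hx), mul_apply, swap_apply_of_ne_of_ne (ne hx ha) (ne hx hb), k3 x (mx x hx),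
          if_neg (ne hx ha), if_neg (ne hx hb)]
      · rw [mul_smul, hu b mb, mul_apply, swap_apply_right, k3 a ma, if_pos rfl]
      · rw [mul_smul, hu a ma, mul_apply, swap_apply_left, k3 b mb, if_neg ab.symm, if_pos rfl]
  have : Group.IsSolvable L := odd_order L (Nat.not_even_iff_odd.1 fun e => by
    have := Fact.mk Nat.prime_two
    obtain ⟨z, hz⟩ := exists_prime_orderOf_dvd_card' 2 e.two_dvd
    have := ho z Ψ hΨ.ge (mem_fixing_finset.1 z.2)
    rw [Subgroup.orderOf_coe, hz] at this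
    exact absurd this (by decide))
  obtain ⟨a, b, c, ha, hb, hc, ab, ac, bc⟩ := two_lt_card_iff.1 (show 2 < Ψᶜ.card by rw [card_compl]; omega)
  rw [mem_compl] at ha hb hc
  have LW : L ≤ stabilizer G Ψ := fun g hg => mem_stabilizer_finset'.2 fun x hx => by
    rwa [mem_fixing_finset.1 hg x hx]
  obtain ⟨F, ⟨F1, F2, F3⟩, F4⟩ := (wellFounded_lt (α := Subgroup G)).has_min
    {F | F ≠ ⊥ ∧ F ≤ L ∧ stabilizer G Ψ ≤ Subgroup.normalizer (F : Set G)} ⟨L, fun e => by
      obtain ⟨g, hg, k⟩ := h2 a ha b hb a ha c hc ab ac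
      rw [e, Subgroup.mem_bot] at hg
      simp [hg, bc, ab.symm] at k, le_rfl, fun z hz => Subgroup.mem_normalizer_fintype fun f hf =>
        mem_fixing_finset.2 fun x hx => by
          rw [mul_smul, mul_smul, mem_fixing_finset.1 hf _ ((mem_stabilizer_finset.1 (inv_mem hz) x).2 hx),
            smul_inv_smul]⟩
  have := Group.isSolvable_of_isSolvable_injective (Subgroup.inclusion_injective F2)
  have cm : ∀ f ∈ F, ∀ g ∈ F, f * g = g * f := fun f hf g hg => by
    have := H1.commutator_lt_of_isSolvable F1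
    exact Subgroup.commutator_eq_bot_iff_le_centralizer.1 (by_contra fun e => F4 _
      ⟨e, this.le.trans F2, H1.le_normalizer_commutator F3 F3⟩ this) hg f hf
  have tr : ∀ b ∉ Ψ, ∃ f ∈ F, f • a = b := fun b hb => by
    rcases eq_or_ne a b with rfl | ab
    · exact ⟨1, one_mem _, one_smul _ _⟩
    obtain ⟨f, hf⟩ := Subgroup.ne_bot_iff_exists_ne_one.1 F1
    obtain ⟨x, hx⟩ := exists_smul_ne (α := α) (g := f.1) fun e => hf (Subtype.ext e)
    have k1 := mem_fixing_finset.1 (F2 f.2)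
    obtain ⟨g, hg, k⟩ := h2 x (fun k => hx (k1 x k)) _ (fun k => hx (smul_left_cancel _ (k1 _ k))) a ha b hb hx.symm ab
    have k2 := (Subgroup.mem_normalizer_iff.1 (F3 (LW hg)) _).1 f.2
    rcases k with ⟨rfl, rfl⟩ | ⟨rfl, rfl⟩
    · exact ⟨_, k2, by simp [mul_smul]⟩
    · exact ⟨_, inv_mem k2, by simp [mul_smul]⟩
  refine hn (trans_of_alt (alt_of_reg ht ho hΨ h3 ha F (fun f hf => mem_fixing_finset.1 (F2 hf)) tr
    (fun f hf e => eq_one_of_forall_smul (α := α) fun x => ?_) F3) (by omega))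
  by_cases hx : x ∈ Ψ
  · exact mem_fixing_finset.1 (F2 hf) x hx
  · obtain ⟨g, hg, rfl⟩ := tr x hx
    rw [← mul_smul, cm f hf g hg, mul_smul, e]

end H16.LW
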