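import Cfsg.Prelude.Def_Perm
import Mathlib.Algebra.Group.Basic

/-! Elementary arithmetic in a near-field `Cfsg.NearField`. -/

namespace H16.NF

variable {F : Type*} [Cfsg.NearField F]

theorem add_mul' (a b c : F) : (a + b) * c = a * c + b * c := Cfsg.NearField.right_distrib a b c

theorem mul_zero' (a : F) : a * 0 = 0 := Cfsg.NearField.mul_zero a

theorem zero_mul' (a : F) : 0 * a = 0 := by
  have := add_mul' 0 0 a
  rw [add_zero] at this
  exact left_eq_add.1 this

theorem neg_mul' (a b : F) : (-a) * b = -(a * b) := by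
  rw [eq_neg_iff_add_eq_zero, ← add_mul', neg_add_cancel, zero_mul']

theorem nsmul_mul' (n : ℕ) (a b : F) : (n • a) * b = n • (a * b) := by
  induction n with
  | zero => simp [zero_mul']
  | succ n ih => rw [succ_nsmul, succ_nsmul, add_mul', ih]

theorem mul_ne_zero' {a b : F} (ha : a ≠ 0) (hb : b ≠ 0) : a * b ≠ 0 := by
  obtain ⟨c, hc, -⟩ := Cfsg.NearField.exists_inv b hb
  intro h
  apply ha
  rw [← mul_one a, ← hc, ← mul_assoc, h, zero_mul']

theorem exists_mul_eq {a b : F} (ha : a ≠ 0) (hb : b ≠ 0) : ∃ c : F, c ≠ 0 ∧ a * c = b := by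
  obtain ⟨c, hc, hc'⟩ := Cfsg.NearField.exists_inv a ha
  refine ⟨c * b, mul_ne_zero' ?_ hb, by rw [← mul_assoc, hc, one_mul]⟩
  rintro rfl
  rw [mul_zero'] at hc
  exact Cfsg.NearField.zero_ne_one hc

theorem mul_right_cancel' {a b c : F} (hc : c ≠ 0) (h : a * c = b * c) : a = b := by
  obtain ⟨d, hd, -⟩ := Cfsg.NearField.exists_inv c hc
  rw [← mul_one a, ← mul_one b, ← hd, ← mul_assoc, h, mul_assoc]

theorem mul_left_cancel' {a b c : F} (hc : c ≠ 0) (h : c * a = c * b) : a = b := by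
  obtain ⟨d, -, hd⟩ := Cfsg.NearField.exists_inv c hc
  rw [← one_mul a, ← one_mul b, ← hd, mul_assoc, h, mul_assoc]

end H16.NF
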