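import Cfsg.Agent.H19.ZDP
import Cfsg.Agent.H21.JA
import Cfsg.Agent.H21.J1B
import Cfsg.Agent.H25.ZJ3
import Cfsg.Agent.H4.J3
/-! Aschbacher's criterion, the numerical case division: `H16.noU_of_zl` (no involution outside `D` once the local data
exist) and `H16.noU`. -/
set_option autoImplicit false
open Cfsg H18 Subgroup MulAction H9 H19

namespace H16

theorem nou_arith {p k n r c : ℕ} (hp : 3 ≤ p) (hk : 0 < k) (h1 : n - 1 = (p + 1) * ((p + 1) * k) * r)
    (h2 : (n - ((p + 1) * k + 1)) * c = ((p + 1) * k + 1) * ((p + 1) * k) * p) :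
    ∃ i, c = (p + 1) * i + 1 ∧ 0 < r ∧ i + k * p + 1 = r * c := by
  have t : 0 < (p + 1) * k := by positivity
  have r0 : 0 < r := Nat.pos_of_ne_zero fun e => by
    rw [e, mul_zero] at h1
    rw [show n - ((p + 1) * k + 1) = 0 by omega, zero_mul] at h2
    exact absurd h2.symm (by positivity)
  obtain ⟨s, hs⟩ : ∃ s, (p + 1) * r = s + 1 := ⟨(p + 1) * r - 1, by have : 0 < (p + 1) * r := by positivity
                                                                    omega⟩
  have e : n - ((p + 1) * k + 1) = (p + 1) * k * s := by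
    have : (p + 1) * ((p + 1) * k) * r = (p + 1) * k * s + (p + 1) * k := by
      rw [← mul_add_one, ← hs]; ring
    omega
  rw [e, mul_assoc, mul_comm ((p + 1) * k + 1), mul_assoc ((p + 1) * k)] at h2
  have h3 := Nat.eq_of_mul_eq_mul_left t h2
  have h4 : c + (p + 1) * (k * p + 1) = 1 + (p + 1) * (r * c) := by
    rw [← mul_assoc, hs]; nlinarith
  have h5 := congrArg (· % (p + 1)) h4
  simp only [Nat.add_mul_mod_self_left] at h5
  rw [Nat.mod_eq_of_lt (by omega : 1 < p + 1)] at h5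
  have h6 := Nat.div_add_mod c (p + 1)
  rw [h5] at h6
  refine ⟨c / (p + 1), h6.symm, r0, Nat.eq_of_mul_eq_mul_left (by omega : 0 < p + 1) ?_⟩
  generalize c / (p + 1) = i at h6
  subst h6
  nlinarith

theorem nou_one {p r i : ℕ} (hp : 3 ≤ p) (r0 : 0 < r) (h : i + 1 * p + 1 = r * ((p + 1) * i + 1)) :
    i = 0 ∨ (r = 1 ∧ i = 1) := by
  rcases i with _ | i
  · exact .inl rfl
  have : r = 1 := by_contra fun e => by
    have := Nat.mul_le_mul_right ((p + 1) * (i + 1) + 1) (show 2 ≤ r by omega)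
    nlinarith [Nat.zero_le (p * i)]
  subst this
  exact .inr ⟨rfl, by nlinarith⟩

theorem nou_two {p r i : ℕ} (hp : 3 ≤ p) (ho : Odd p) (r0 : 0 < r)
    (h : i + (p + 1) * p + 1 = r * ((p + 1) * i + 1)) : i = 0 ∨ (r = 1 ∧ i = p + 1) := by
  rcases Nat.eq_zero_or_pos i with e | i0
  · exact .inl e
  by_cases e : r = 1
  · subst e
    exact .inr ⟨rfl, Nat.eq_of_mul_eq_mul_left (by omega : 0 < p) (by nlinarith)⟩
  have h1 : i < p := by_contra fun k => by
    have a := Nat.mul_le_mul_right ((p + 1) * i + 1) (show 2 ≤ r by omega)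
    have b := Nat.mul_le_mul_left (p + 1) (show p ≤ i by omega)
    nlinarith
  have h2 : i + 1 + (p + 1) * p = r + (p + 1) * (r * i) := by nlinarith
  have h3 := congrArg (· % (p + 1)) h2
  simp only [Nat.add_mul_mod_self_left] at h3
  rw [Nat.mod_eq_of_lt (by omega : i + 1 < p + 1)] at h3
  have h4 := Nat.div_add_mod r (p + 1)
  rw [← h3] at h4
  generalize r / (p + 1) = j at h4
  subst h4
  rcases j with _ | j
  · have h5 : p = i * (i + 1) := Nat.eq_of_mul_eq_mul_left (by omega : 0 < p + 1) (by nlinarith)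
    exact absurd (h5 ▸ Nat.even_mul_succ_self i) (Nat.not_even_iff_odd.2 ho)
  · have a : p + 1 + 1 ≤ (p + 1) * (j + 1) + (i + 1) := by nlinarith
    have b : p + 1 + 1 ≤ (p + 1) * i + 1 := by nlinarith
    have := Nat.mul_le_mul a b
    nlinarith

universe u v

theorem noU_of_zl {G Ω : Type*} [Group G] [MulAction G Ω] [Finite G] {D : Set G} (h : ZL Ω D) (x : G)
    (x2 : x * x = 1) (x1 : x ≠ 1) : x ∈ D := by_contra fun xD => by
  obtain ⟨a, ha⟩ := h.two_fix (two_zpowers x2)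
  obtain ⟨b, hb⟩ := h.uv x2 x1 xD (ha (mem_zpowers x))
  obtain ⟨X, u, a, b, hu, m⟩ := h.exists_Mx hb
  obtain ⟨L, T, E, K, V, W, A, t, s, l⟩ := h.ln₀ hu
  obtain ⟨r, hr⟩ := l.dvd_n h.toZB m
  obtain ⟨c, c1, c2, -⟩ := l.num
  have four := l.four
  obtain ⟨p, hp⟩ : ∃ p, Nat.card A = p + 1 := ⟨Nat.card A - 1, by omega⟩
  have ho : Odd p := by
    obtain ⟨j, hj⟩ := (l.two.of_le l.leQ₀).card_eq_pow
    rcases j with _ | j
    · omega
    · rw [hp, pow_succ] at hj
      exact ⟨2 ^ j - 1, by omega⟩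
  rw [hp, Nat.add_sub_cancel] at c1 c2
  rcases l.cases_card with e | ⟨e, -⟩ | ⟨e, -⟩
  · have e' : Nat.card T = (p + 1) * 1 := by rw [e, hp, mul_one]
    rw [hp, e'] at hr
    obtain ⟨i, rfl, r0, k⟩ := nou_arith (by omega) one_pos hr (e' ▸ c2)
    rcases nou_one (by omega) r0 k with rfl | ⟨rfl, rfl⟩
    · exact H21.j1b h l e (by rw [← c1, hp]; ring)
    · exact H21.ja h l m (by rw [hr, hp, e', mul_one]) (.inl ⟨e, by rw [← c1, hp]; ring⟩)
  · have e' : Nat.card T = (p + 1) * (p + 1) := by rw [e, hp, pow_two]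
    rw [hp, e'] at hr
    obtain ⟨i, rfl, r0, k⟩ := nou_arith (by omega) (by omega) hr (e' ▸ c2)
    rcases nou_two (by omega) ho r0 k with rfl | ⟨rfl, rfl⟩
    · exact H25.j2 h l m e (by rw [← c1, hp]; ring)
    · refine H21.ja h l m (by rw [hr, hp, e', mul_one]) (.inr fun k => ?_)
      rw [← c1, show ((p + 1) * (p + 1) + 1) * p + 1 = (p + 1) * (p * (p + 1) + 1) by ring] at k
      have k2 : PiNat {2} (p * (p + 1) + 1) := k.of_dvd (dvd_mul_left _ _)
      have := k2.eq_one (H5.piNat_two_compl.2 (Nat.even_mul_succ_self p).add_one)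
      nlinarith
  · exact H4.J3.j3 h l m e

theorem noU (zl : ∀ {G : Type u} {Ω : Type v} [Group G] [MulAction G Ω] [Finite G] {D : Set G}, ZB Ω D → ZL Ω D) :
    NoU.{u, v} := fun h => noU_of_zl (zl h)

end H16
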