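import Cfsg.Agent.H16.Des

/-! Ostrom-Wagner, part 1: finite projective planes `Pl I n`, subplanes (`Pl.sub`), collineations (`Ac`): centres and
axes, involutions (`Ac.inv2`), Baer's theorem (`Ac.baer`), fixed triples. -/

set_option autoImplicit false
set_option linter.unusedSectionVars false

namespace H16.OW
open Subgroup MulAction

variable {G X Y : Type*} [Finite X] [Finite Y] {I : X → Y → Prop} {n : ℕ}

/-- a projective plane of order `n` -/
structure Pl (I : X → Y → Prop) (n : ℕ) : Prop where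
  line : ∀ x y, ∃ l, I x l ∧ I y l
  point : ∀ l m, ∃ x, I x l ∧ I x m
  uniq : ∀ {x y l m}, I x l → I y l → I x m → I y m → x = y ∨ l = m
  two : 2 ≤ n
  cP : ∀ l, {x | I x l}.ncard = n + 1
  cL : ∀ x, {l | I x l}.ncard = n + 1
  cX : Nat.card X = n ^ 2 + n + 1
  cY : Nat.card Y = n ^ 2 + n + 1

/-- `A` contains a quadrangle -/
def Qd (I : X → Y → Prop) (A : X → Prop) : Prop := ∃ a b c d m k, A a ∧ A b ∧ A c ∧ A d ∧ a ≠ b ∧ c ≠ d ∧
  I a m ∧ I b m ∧ I c k ∧ I d k ∧ ¬ I a k ∧ ¬ I b k ∧ ¬ I c m ∧ ¬ I d m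

theorem Qd.mono {A B : X → Prop} (h : Qd I A) (e : ∀ x, A x → B x) : Qd I B := by
  obtain ⟨a, b, c, d, m, k, h1, h2, h3, h4, h⟩ := h
  exact ⟨a, b, c, d, m, k, e _ h1, e _ h2, e _ h3, e _ h4, h⟩

theorem ex3 {Z : Type*} [Finite Z] {S : Set Z} (h : 3 ≤ S.ncard) (a b : Z) : ∃ x ∈ S, x ≠ a ∧ x ≠ b := by
  by_contra e
  push Not at e
  have := (Set.ncard_le_ncard (show S ⊆ {a, b} from fun x hx => by
    by_cases h : x = a
    · exact .inl h
    · exact .inr (e x hx h))).trans (Set.ncard_insert_le _ _)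
  simp at this; omega

open Configuration in
theorem of_inst {P L : Type*} [Membership P L] [Finite P] [Finite L] [ProjectivePlane P L] :
    Pl (fun (p : P) (l : L) => p ∈ l) (ProjectivePlane.order P L) := by
  have := Fintype.ofFinite P
  have := Fintype.ofFinite L
  have cP : ∀ l : L, {x : P | x ∈ l}.ncard = ProjectivePlane.order P L + 1 := fun l =>
    ProjectivePlane.pointCount_eq P l
  have cL : ∀ x : P, {l : L | x ∈ l}.ncard = ProjectivePlane.order P L + 1 := fun l =>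
    ProjectivePlane.lineCount_eq L l
  refine ⟨fun x y => ?_, fun l m => ?_, Nondegenerate.eq_or_eq, ProjectivePlane.one_lt_order P L, cP, cL,
    by simpa using ProjectivePlane.card_points P L, by simpa using ProjectivePlane.card_lines P L⟩
  · by_cases e : x = y
    · obtain ⟨l, hl⟩ := Set.nonempty_of_ncard_ne_zero (s := {l : L | x ∈ l}) (by rw [cL]; omega)
      exact ⟨l, hl, e ▸ hl⟩
    · exact (HasLines.existsUnique_line P L x y e).exists
  · by_cases e : l = m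
    · obtain ⟨x, hl⟩ := Set.nonempty_of_ncard_ne_zero (s := {x : P | x ∈ l}) (by rw [cP]; omega)
      exact ⟨x, hl, e ▸ hl⟩
    · exact (HasPoints.existsUnique_point P L l m e).exists

open Configuration in
theorem of_qd (line : ∀ x y, x ≠ y → ∃ l, I x l ∧ I y l) (point : ∀ l m, l ≠ m → ∃ x, I x l ∧ I x m)
    (uniq : ∀ {x y l m}, I x l → I y l → I x m → I y m → x = y ∨ l = m) (hq : Qd I fun _ => True) :
    ∃ n, Pl I n := by
  obtain ⟨a, b, c, d, m, k, -, -, -, -, ab, cd, am, bm, ck, dk, ak, bk, cm, dm⟩ := hq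
  obtain ⟨e, ae, de⟩ := line a d (by rintro rfl; exact ak dk)
  have me : m ≠ e := by rintro rfl; exact dm de
  let : Membership X Y := ⟨fun l x => I x l⟩
  choose ml ml1 ml2 using line
  choose mp mp1 mp2 using point
  let : ProjectivePlane X Y :=
    { exists_point := fun l => by
        by_contra h
        push Not at h
        exact cm ((uniq am bm (h a) (h b)).resolve_left ab ▸ h c)
      exists_line := fun p => by
        by_contra h
        push Not at h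
        exact ak ((uniq (h m) am (h e) ae).resolve_right me ▸ h k)
      eq_or_eq := uniq
      mkPoint := fun h => mp _ _ h
      mkPoint_ax := fun h => ⟨mp1 _ _ h, mp2 _ _ h⟩
      mkLine := fun h => ml _ _ h
      mkLine_ax := fun h => ⟨ml1 _ _ h, ml2 _ _ h⟩
      exists_config := ⟨c, a, b, k, m, e, cm, fun h => ak ((uniq h de ck dk).resolve_left cd ▸ ae), ak, am, ae, bk, bm,
        fun h => me ((uniq am bm ae h).resolve_left ab)⟩ }
  exact ⟨_, of_inst⟩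

namespace Pl
variable (h : Pl I n) {x y z c : X} {l m k a : Y}
include h

theorem dual : Pl (fun l x => I x l) n :=
  ⟨h.point, h.line, fun h1 h2 h3 h4 => (h.uniq h1 h3 h2 h4).symm, h.two, h.cL, h.cP, h.cY, h.cX⟩

theorem eqL (e : x ≠ y) (h1 : I x l) (h2 : I y l) (h3 : I x m) (h4 : I y m) : l = m :=
  (h.uniq h1 h2 h3 h4).resolve_left e

theorem eqP (e : l ≠ m) (h1 : I x l) (h2 : I y l) (h3 : I x m) (h4 : I y m) : x = y :=
  (h.uniq h1 h2 h3 h4).resolve_right e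

theorem three (l : Y) (a b : X) : ∃ x, I x l ∧ x ≠ a ∧ x ≠ b :=
  ex3 (S := {x | I x l}) (by rw [h.cP]; have := h.two; omega) a b

theorem three' (x : X) (a b : Y) : ∃ l, I x l ∧ l ≠ a ∧ l ≠ b := h.dual.three x a b

theorem neX : Nonempty X := (Nat.card_pos_iff.1 (by rw [h.cX]; omega)).1

theorem neY : Nonempty Y := h.dual.neX

theorem off2 (l : Y) (u : X) : ∃ x, ¬ I x l ∧ x ≠ u := by
  obtain ⟨y, hy, -⟩ := h.three l u u
  obtain ⟨m, hm, e, -⟩ := h.three' y l l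
  obtain ⟨x, hx, e', e''⟩ := h.three m y u
  exact ⟨x, fun hl => e' (h.eqP e hx hm hl hy), e''⟩

theorem cO (l : Y) : {x | ¬ I x l}.ncard = n ^ 2 := by
  have := Set.ncard_add_ncard_compl {x | I x l}
  rw [h.cP, h.cX] at this
  exact (by omega : {x | I x l}ᶜ.ncard = n ^ 2)

theorem cP1 (hx : I x l) : {y | I y l ∧ y ≠ x}.ncard = n := by
  have := Set.ncard_sdiff_singleton_add_one (s := {y | I y l}) hx
  rw [h.cP] at this
  exact Nat.succ_injective this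

theorem ord_eq {X' Y' : Type*} {I' : X' → Y' → Prop} {n' : ℕ} (h' : Pl I' n') (e : Nat.card X = Nat.card X') :
    n = n' := by
  rw [h.cX, h'.cX] at e
  rcases lt_trichotomy n n' with h | h | h
  · nlinarith
  · exact h
  · nlinarith

theorem qd3 {A : X → Prop} {x₁ x₂ x₃ z₁ z₂ : X} (h1 : A x₁) (h2 : A x₂) (h3 : A x₃) (h4 : A z₁) (h5 : A z₂)
    (e1 : x₁ ≠ x₂) (e2 : x₁ ≠ x₃) (e3 : x₂ ≠ x₃) (e : z₁ ≠ z₂) (m1 : I x₁ m) (m2 : I x₂ m) (m3 : I x₃ m)
    (m4 : ¬ I z₁ m) (m5 : ¬ I z₂ m) : Qd I A := by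
  obtain ⟨k, k1, k2⟩ := h.line z₁ z₂
  have km : m ≠ k := by rintro rfl; exact m4 k1
  by_cases a1 : I x₁ k
  · exact ⟨x₂, x₃, _, _, m, k, h2, h3, h4, h5, e3, e, m2, m3, k1, k2, fun a => e1 (h.eqP km m1 m2 a1 a),
      fun a => e2 (h.eqP km m1 m3 a1 a), m4, m5⟩
  by_cases a2 : I x₂ k
  · exact ⟨x₁, x₃, _, _, m, k, h1, h3, h4, h5, e2, e, m1, m3, k1, k2, a1, fun a => e3 (h.eqP km m2 m3 a2 a), m4, m5⟩
  · exact ⟨x₁, x₂, _, _, m, k, h1, h2, h4, h5, e1, e, m1, m2, k1, k2, a1, a2, m4, m5⟩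

theorem qd : Qd I fun _ => True := by
  obtain ⟨m⟩ := h.neY
  obtain ⟨u⟩ := h.neX
  obtain ⟨a, ha, -⟩ := h.three m u u
  obtain ⟨b, hb, ba, -⟩ := h.three m a a
  obtain ⟨c, hc, ca, cb⟩ := h.three m a b
  obtain ⟨y, hy, -⟩ := h.off2 m u
  obtain ⟨z, hz, e⟩ := h.off2 m y
  exact h.qd3 trivial trivial trivial trivial trivial ba cb.symm ca.symm e hb ha hc hz hy

theorem sub (A : X → Prop) (B : Y → Prop) (c1 : ∀ x y l, A x → A y → x ≠ y → I x l → I y l → B l)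
    (c2 : ∀ l m x, B l → B m → l ≠ m → I x l → I x m → A x) (hq : Qd I A) :
    ∃ m, Pl (fun (x : Subtype A) (l : Subtype B) => I x l) m := by
  refine of_qd (fun x y e => ?_) (fun l m e => ?_) (fun h1 h2 h3 h4 => (h.uniq h1 h2 h3 h4).imp Subtype.ext Subtype.ext) ?_
  · obtain ⟨l, h1, h2⟩ := h.line x y
    exact ⟨⟨l, c1 _ _ l x.2 y.2 (fun e' => e (Subtype.ext e')) h1 h2⟩, h1, h2⟩
  · obtain ⟨x, h1, h2⟩ := h.point l m
    exact ⟨⟨x, c2 _ _ x l.2 m.2 (fun e' => e (Subtype.ext e')) h1 h2⟩, h1, h2⟩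
  · obtain ⟨a, b, c, d, m, k, ha, hb, hc, hd, ab, cd, am, bm, ck, dk, r⟩ := hq
    exact ⟨⟨a, ha⟩, ⟨b, hb⟩, ⟨c, hc⟩, ⟨d, hd⟩, ⟨m, c1 _ _ _ ha hb ab am bm⟩, ⟨k, c1 _ _ _ hc hd cd ck dk⟩, trivial,
      trivial, trivial, trivial, fun e => ab (congrArg Subtype.val e), fun e => cd (congrArg Subtype.val e), am, bm, ck, dk, r⟩

end Pl

variable [Group G] [MulAction G X] [MulAction G Y]

variable (G) in
/-- a group acting on a projective plane -/
structure Ac (I : X → Y → Prop) (n : ℕ) : Prop extends Pl I n where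
  inv : ∀ (g : G) x l, I (g • x) (g • l) ↔ I x l

/-- `a` is an axis of `g` (in the dual plane: a centre) -/
def Ax (I : X → Y → Prop) (g : G) (a : Y) : Prop := ∀ x, I x a → g • x = x

namespace Ac
variable (h : Ac G I n) {x y z c : X} {l m k a : Y} {g j : G}
include h

theorem dl : Ac G (fun l x => I x l) n := ⟨h.toPl.dual, fun g l x => h.inv g x l⟩

theorem mem (hl : g • l = l) (hx : I x l) : I (g • x) l := by rwa [← hl, h.inv]

theorem nmem (hl : g • l = l) (hx : ¬ I x l) : ¬ I (g • x) l := by rwa [← hl, h.inv]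

theorem mem' (hl : g • x = x) (hx : I x l) : I x (g • l) := by rwa [← hl, h.inv]

theorem fixL (e : x ≠ y) (hx : g • x = x) (hy : g • y = y) (h1 : I x l) (h2 : I y l) : g • l = l :=
  h.eqL e (h.mem' hx h1) (h.mem' hy h2) h1 h2

theorem fixP (e : l ≠ m) (hl : g • l = l) (hm : g • m = m) (h1 : I x l) (h2 : I x m) : g • x = x :=
  h.dl.fixL e hl hm h1 h2

theorem ax_fix (ha : Ax I g a) : g • a = a := by
  obtain ⟨u⟩ := h.neX
  obtain ⟨x, hx, -⟩ := h.three a u u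
  obtain ⟨y, hy, e, -⟩ := h.three a x x
  exact h.fixL e (ha y hy) (ha x hx) hy hx

theorem two_ax (ha : Ax I g a) (hm : Ax I g m) (e : a ≠ m) (l : Y) : g • l = l := by
  obtain ⟨c, c1, c2⟩ := h.point a m
  have k1 : ∀ l, ¬ I c l → g • l = l := fun l hl => by
    obtain ⟨x, x1, x2⟩ := h.point a l
    obtain ⟨y, y1, y2⟩ := h.point m l
    refine h.fixL (x := x) (y := y) ?_ (ha x x1) (hm y y1) x2 y2
    rintro rfl
    exact hl (h.eqP e c1 x1 c2 y1 ▸ x2)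
  by_cases hl : I c l
  · obtain ⟨x, hx, xc, -⟩ := h.three l c c
    obtain ⟨u, hu, ul, -⟩ := h.three' x l l
    obtain ⟨v, hv, vl, vu⟩ := h.three' x l u
    exact h.fixL xc (h.fixP vu (k1 v fun e => vl (h.eqL xc hv e hx hl)) (k1 u fun e => ul (h.eqL xc hu e hx hl)) hv hu)
      (ha c c1) hx hl
  · exact k1 l hl

theorem trivP (hg : ∀ l : Y, g • l = l) (x : X) : g • x = x := by
  obtain ⟨u⟩ := h.neY
  obtain ⟨l, hl, -⟩ := h.three' x u u
  obtain ⟨m, hm, e, -⟩ := h.three' x l l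
  exact h.fixP e (hg m) (hg l) hm hl

theorem ce_of_fix (ha : Ax I g a) (hx : ¬ I x a) (e : g • x = x) : Ax (fun l x => I x l) g x := fun l hl => by
  obtain ⟨y, y1, y2⟩ := h.point a l
  exact h.fixL (x := x) (y := y) (by rintro rfl; exact hx y1) e (ha y y1) hl y2

theorem triv (ha : Ax I g a) (hc : Ax (fun l x => I x l) g c) (hx : ¬ I x a) (xc : x ≠ c) (e : g • x = x) (z : X) :
    g • z = z := h.dl.two_ax (h.ce_of_fix ha hx e) hc xc z

theorem ex_ce (ha : Ax I g a) : ∃ c, Ax (fun l x => I x l) g c := by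
  by_cases hf : ∃ x, ¬ I x a ∧ g • x = x
  · obtain ⟨x, hx, e⟩ := hf
    exact ⟨x, h.ce_of_fix ha hx e⟩
  push Not at hf
  have k1 : ∀ x, ¬ I x a → ∃ k, I x k ∧ g • k = k := fun x hx => by
    obtain ⟨k, k1, k2⟩ := h.line x (g • x)
    obtain ⟨c, c1, c2⟩ := h.point a k
    exact ⟨k, k1, h.eqL (x := g • x) (y := c) (by rintro rfl; exact h.nmem (h.ax_fix ha) hx c1) ((h.inv ..).2 k1)
      (h.mem' (ha c c1) c2) k2 c2⟩
  obtain ⟨u⟩ := h.neX
  obtain ⟨x, hx, -⟩ := h.off2 a u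
  obtain ⟨k, xk, hk⟩ := k1 x hx
  obtain ⟨c, c1, c2⟩ := h.point a k
  refine ⟨c, fun l hl => ?_⟩
  by_cases e : l = a
  · exact e ▸ h.ax_fix ha
  obtain ⟨y, hy, yc, -⟩ := h.three l c c
  obtain ⟨k', yk, hk'⟩ := k1 y fun e' => yc (h.eqP e hy hl e' c1)
  suffices I c k' from h.eqL yc hy hl yk this ▸ hk'
  by_cases e' : k = k'
  · exact e' ▸ c2
  obtain ⟨w, w1, w2⟩ := h.point k k'
  have wa : I w a := by_contra fun e'' => hf w e'' (h.fixP e' hk hk' w1 w2)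
  exact h.eqP (show k ≠ a by rintro rfl; exact hx xk) w1 c2 wa c1 ▸ w2

theorem inv_line (hj : ∀ x : X, j • j • x = x) (hx : j • x ≠ x) (h1 : I x l) (h2 : I (j • x) l) : j • l = l :=
  h.eqL hx ((h.inv ..).2 h1) (by simpa only [hj] using (h.inv j ..).2 h2) h2 h1

theorem inv_dual (hj : ∀ x : X, j • j • x = x) (l : Y) : j • j • l = l := by
  simp only [← mul_smul] at hj ⊢
  exact h.dl.trivP hj l

theorem inv_pt (hj : ∀ x : X, j • j • x = x) (ha : j • a = a) (hx : j • x ≠ x) (xa : I x a) (xl : I x l) (la : l ≠ a) :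
    ∃ y, I y l ∧ ¬ I y a ∧ j • y = y := by
  have hl : j • l ≠ l := fun e => hx (h.fixP la e ha xl xa)
  obtain ⟨y, y1, y2⟩ := h.point l (j • l)
  have := h.dl.inv_line (h.inv_dual hj) hl y1 y2
  exact ⟨y, y1, fun e => hx (h.eqP la y1 xl e xa ▸ this), this⟩

theorem inv2 (hj : ∀ x : X, j • j • x = x) : (∃ a, Ax I j a) ∨ Qd I fun x => j • x = x := by
  refine or_iff_not_imp_left.2 fun hn => ?_
  simp only [Ax, not_exists, not_forall] at hn
  have k1 : ∀ a, j • a = a → ∃ y z, y ≠ z ∧ ¬ I y a ∧ ¬ I z a ∧ j • y = y ∧ j • z = z := fun a ha => by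
    obtain ⟨x, xa, hx⟩ := hn a
    obtain ⟨l, xl, la, -⟩ := h.three' x a a
    obtain ⟨m, xm, ma, ml⟩ := h.three' x a l
    obtain ⟨y, y1, y2, y3⟩ := h.inv_pt hj ha hx xa xl la
    obtain ⟨z, z1, z2, z3⟩ := h.inv_pt hj ha hx xa xm ma
    exact ⟨y, z, fun e => y2 (h.eqP ml (e ▸ z1) xm y1 xl ▸ xa), y2, z2, y3, z3⟩
  obtain ⟨u⟩ := h.neY
  obtain ⟨x, -, hx⟩ := hn u
  obtain ⟨a, a1, a2⟩ := h.line x (j • x)
  have ha := h.inv_line hj hx a1 a2
  obtain ⟨y, z, yz, y1, z1, y2, z2⟩ := k1 a ha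
  obtain ⟨m, m1, m2⟩ := h.line y z
  have hm := h.fixL yz y2 z2 m1 m2
  obtain ⟨w, w1, w2⟩ := h.point m a
  obtain ⟨s, t, st, s1, t1, s2, t2⟩ := k1 m hm
  exact h.qd3 y2 z2 (h.fixP (by rintro rfl; exact y1 m1) hm ha w1 w2) s2 t2 yz (by rintro rfl; exact y1 w2)
    (by rintro rfl; exact z1 w2) st m1 m2 w1 s1 t1

theorem baer (hj : ∀ x : X, j • j • x = x) (hx : j • x ≠ x) {r : ℕ}
    (h' : Pl (fun (x : {x : X // j • x = x}) (l : {l : Y // j • l = l}) => I x l) r) : n = r ^ 2 := by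
  obtain ⟨a, a1, a2⟩ := h.line x (j • x)
  have ha := h.inv_line hj hx a1 a2
  choose f f1 f2 using h.line x
  rw [← h.dl.cP1 a1, ← h'.cO (⟨a, ha⟩ : {l : Y // j • l = l})]
  refine (Set.ncard_congr (s := {y : {x : X // j • x = x} | ¬ I y a}) (t := {l | I x l ∧ l ≠ a}) (fun y _ => f y)
    (fun y hy => ⟨f1 _, fun e => hy (e ▸ f2 _)⟩) (fun y z hy hz e => ?_)
    fun l hl => ?_).symm
  · by_contra e'
    exact hx (h.fixP (show f y ≠ a from fun e => hy (e ▸ f2 _)) (h.fixL (fun e => e' (Subtype.ext e)) y.2 z.2 (f2 _)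
      (e ▸ f2 _)) ha (f1 _) a1)
  · obtain ⟨y, y1, y2, y3⟩ := h.inv_pt hj ha hx a1 hl.1 hl.2
    exact ⟨⟨y, y3⟩, y2, h.eqL (by rintro rfl; exact hx y3) (f1 _) (f2 _) hl.1 y1⟩

theorem sub_fix {ι : Type*} (s : ι → G) (hq : Qd I fun x => ∀ i, s i • x = x) :
    ∃ r, Pl (fun (x : {x : X // ∀ i, s i • x = x}) (l : {l : Y // ∀ i, s i • l = l}) => I x l) r :=
  h.sub _ _ (fun _ _ _ hx hy e h1 h2 i => h.fixL e (hx i) (hy i) h1 h2)
    (fun _ _ _ hx hy e h1 h2 i => h.fixP e (hx i) (hy i) h1 h2) hq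

theorem sub_fix1 (hq : Qd I fun x => j • x = x) :
    ∃ r, Pl (fun (x : {x : X // j • x = x}) (l : {l : Y // j • l = l}) => I x l) r :=
  h.sub _ _ (fun _ _ _ hx hy e h1 h2 => h.fixL e hx hy h1 h2) (fun _ _ _ hx hy e h1 h2 => h.fixP e hx hy h1 h2) hq

theorem fix_card (g : G) : {x : X | g • x = x}.ncard = {l : Y | g • l = l}.ncard := by
  refine fix_eq I (h.cX.trans h.cY.symm) (l := 1) (r := n + 1) (by have := h.two; omega) h.cL (fun x y e => ?_)
    (toPerm g) (toPerm g) (h.inv g)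
  obtain ⟨l, h1, h2⟩ := h.line x y
  exact Set.ncard_eq_one.2 ⟨l, Set.ext fun m => ⟨fun hm => h.eqL e hm.1 hm.2 h1 h2, by rintro rfl; exact ⟨h1, h2⟩⟩⟩

theorem fix_triple (e : x ≠ y) (hx : g • x = x) (hy : g • y = y) :
    ∃ u w l, I w l ∧ ¬ I u l ∧ g • u = u ∧ g • w = w ∧ g • l = l := by
  obtain ⟨k, k1, k2⟩ := h.line x y
  obtain ⟨l, hl, lk⟩ := Set.exists_ne_of_one_lt_ncard (s := {l : Y | g • l = l})
    (h.fix_card g ▸ (Set.one_lt_ncard_iff (Set.toFinite _)).2 ⟨x, y, hx, hy, e⟩) k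
  obtain ⟨w, w1, w2⟩ := h.point l k
  have hw := h.fixP lk hl (h.fixL e hx hy k1 k2) w1 w2
  by_cases xl : I x l
  · exact ⟨y, w, l, w1, fun yl => lk (h.eqL e xl yl k1 k2), hy, hw, hl⟩
  · exact ⟨x, w, l, w1, xl, hx, hw, hl⟩

theorem inv_two (hj : ∀ x : X, j • j • x = x) : ∃ x y : X, x ≠ y ∧ j • x = x ∧ j • y = y := by
  obtain ⟨a, ha⟩ | ⟨a, b, -, -, -, -, ha, hb, -, -, e, -⟩ := h.inv2 hj
  · obtain ⟨u⟩ := h.neX
    obtain ⟨x, hx, -⟩ := h.three a u u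
    obtain ⟨y, hy, e, -⟩ := h.three a x x
    exact ⟨y, x, e, ha y hy, ha x hx⟩
  · exact ⟨a, b, e, ha, hb⟩

end Ac

end H16.OW
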