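import Cfsg.Agent.H16.OW1

/-! Ostrom-Wagner, part 2: orbit lemmas, Sylow subgroups of stabilisers (`Sy`, Witt's lemma `Sy.witt`), transitivity on
triples (`TT`, `Ac.tt`), Sylow subgroups of triple stabilisers are not planar (`Ac.np`). -/

set_option autoImplicit false
set_option linter.unusedSectionVars false

namespace H16.OW
open Subgroup MulAction

section Grp
variable {G α β : Type*} [Group G] [Finite G] [MulAction G α] [MulAction G β] [Finite α] [Finite β] {p : ℕ}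

theorem orb_card (H : Subgroup G) (a : α) : (orbit H a).ncard = (stabilizer G a).relIndex H :=
  (index_stabilizer H a).symm

theorem dvd_rel (A B : Subgroup G) : B.index ∣ B.relIndex A * A.index := by
  rw [← inf_relIndex_right, relIndex_mul_index inf_le_right]
  exact index_dvd_of_le inf_le_left

theorem cop (a : α) (b : β) (hc : (orbit G b).ncard.Coprime (orbit G a).ncard) {b' : β} (hb : b' ∈ orbit G b) :
    ∃ g : G, g • a = a ∧ g • b = b' := by
  have := Set.eq_of_subset_of_ncard_le (s := orbit (stabilizer G a) b) (t := orbit G b) (orbit_subgroup_subset _ _) (by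
    refine Nat.le_of_dvd ((Set.ncard_pos (Set.toFinite _)).2 ⟨b, mem_orbit_self b⟩) (hc.dvd_of_dvd_mul_right ?_)
    rw [orb_card, ← index_stabilizer, ← index_stabilizer]
    exact dvd_rel _ _)
  obtain ⟨g, hg⟩ := this.ge hb
  exact ⟨g, g.2, hg⟩

theorem pdvd [Fact p.Prime] (P : Sylow p G) (a : α) {k : ℕ} (h : p ^ k ∣ (orbit G a).ncard) :
    p ^ k ∣ (orbit (P : Subgroup G) a).ncard := by
  rw [← index_stabilizer] at h
  rw [orb_card]
  exact ((Fact.out : p.Prime).coprime_pow_of_not_dvd P.not_dvd_index).symm.dvd_of_dvd_mul_right (h.trans (dvd_rel _ _))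

theorem ex_move [Fact p.Prime] (a : α) (h : p ∣ (orbit G a).ncard) : ∃ g : G, (∃ k, g ^ p ^ k = 1) ∧ g • a ≠ a := by
  obtain ⟨P⟩ : Nonempty (Sylow p G) := inferInstance
  by_contra e
  push Not at e
  have := pdvd P a (k := 1) (by simpa using h)
  rw [show orbit (P : Subgroup G) a = {a} from Set.eq_singleton_iff_unique_mem.2 ⟨mem_orbit_self a, by
    rintro _ ⟨g, rfl⟩
    exact e g ((P.2 g).imp fun k hk => congrArg Subtype.val hk)⟩] at this
  simp [(Fact.out : p.Prime).ne_one] at this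

theorem dvd_inv {d : ℕ} (S : Set α) (hS : ∀ g : G, ∀ x ∈ S, g • x ∈ S) (h : ∀ x ∈ S, d ∣ (orbit G x).ncard) :
    d ∣ S.ncard := by
  induction' e : S.ncard using Nat.strong_induction_on with N ih generalizing S
  obtain rfl | ⟨x, hx⟩ := S.eq_empty_or_nonempty
  · simp [← e]
  have hs : orbit G x ⊆ S := by rintro _ ⟨g, rfl⟩; exact hS g x hx
  have := Set.ncard_sdiff_add_ncard_of_subset hs
  have p := (Set.ncard_pos (Set.toFinite _)).2 ⟨x, mem_orbit_self (M := G) x⟩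
  rw [← e, ← this]
  exact dvd_add (ih _ (by omega) (S \ orbit G x) (fun g y hy => ⟨hS g y hy.1, fun h => hy.2 (by
    simpa using mem_orbit_of_mem_orbit g⁻¹ h)⟩) (fun y hy => h y hy.1) rfl) (h x hx)

theorem pfix [Fact p.Prime] (hG : IsPGroup p G) (T : Set α) (hT : ∀ g : G, ∀ x ∈ T, g • x ∈ T) :
    T.ncard ≡ {x ∈ T | ∀ g : G, g • x = x}.ncard [MOD p] := by
  have hs : {x ∈ T | ∀ g : G, g • x = x} ⊆ T := fun _ h => h.1
  rw [← Set.ncard_sdiff_add_ncard_of_subset hs]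
  refine (Nat.modEq_iff_dvd' (by omega)).2 ?_ |>.symm
  rw [Nat.add_sub_cancel]
  refine dvd_inv (G := G) _ (fun g x hx => ⟨hT g x hx.1, fun e => hx.2 ⟨hx.1, fun k => ?_⟩⟩) fun x hx => ?_
  · have := e.2 g⁻¹
    rw [inv_smul_smul] at this
    rw [this]; exact e.2 k
  · obtain ⟨k, hk⟩ := hG.card_orbit x
    rw [Nat.card_coe_set_eq] at hk
    rw [hk]
    refine dvd_pow_self _ ?_
    rintro rfl
    obtain ⟨y, hy⟩ := Set.ncard_eq_one.1 hk
    exact hx.2 ⟨hx.1, fun g => (hy.le (mem_orbit x g)).trans (hy.le (mem_orbit_self x)).symm⟩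

theorem ex_inv {g : G} {k : ℕ} (hg : g ^ 2 ^ k = 1) (hz : ∃ z : α, g • z ≠ z) :
    ∃ j ∈ zpowers g, (∃ z : α, j • z ≠ z) ∧ ∀ z : α, j • j • z = z := by
  induction k generalizing g with
  | zero => simp_all
  | succ k ih =>
    by_cases e : ∀ z : α, g • g • z = z
    · exact ⟨g, mem_zpowers g, hz, e⟩
    obtain ⟨j, hj, r⟩ := ih (g := g * g) (by rw [← sq, ← pow_mul, ← pow_succ', hg]) (by simpa [mul_smul] using e)
    exact ⟨j, zpowers_le.2 (mul_mem (mem_zpowers g) (mem_zpowers g)) hj, r⟩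

theorem pg_zpowers {g : G} {k : ℕ} (hg : g ^ p ^ k = 1) : IsPGroup p (zpowers g) := by
  rintro ⟨_, i, rfl⟩
  exact ⟨k, Subtype.ext (show (g ^ i) ^ p ^ k = 1 by rw [← zpow_natCast, ← zpow_mul, mul_comm, zpow_mul, zpow_natCast, hg, one_zpow])⟩

/-- `S` is a Sylow subgroup of the stabiliser of `t` -/
structure Sy (p : ℕ) (S : Subgroup G) (t : α) : Prop where
  pg : IsPGroup p S
  le : S ≤ stabilizer G t
  nd : ¬ p ∣ S.relIndex (stabilizer G t)

theorem ex_sy [Fact p.Prime] {K : Subgroup G} (hK : IsPGroup p K) {t : α} (h : K ≤ stabilizer G t) :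
    ∃ S, K ≤ S ∧ Sy p S t := by
  obtain ⟨P, hP⟩ := (hK.comap_subtype (K := stabilizer G t)).exists_le_sylow
  refine ⟨(P : Subgroup _).map (stabilizer G t).subtype, fun k hk => ⟨⟨k, h hk⟩, hP hk, rfl⟩, P.2.map _, map_subtype_le _, ?_⟩
  rw [relIndex, subgroupOf, comap_map_eq_self_of_injective (subtype_injective _)]
  exact P.not_dvd_index

namespace Sy
variable [Fact p.Prime] {S : Subgroup G} {t t' : α} (h : Sy p S t)
include h

theorem of_index {R : Subgroup G} {g : G} (e : g • t = t') (h1 : IsPGroup p R) (h2 : R ≤ stabilizer G t')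
    (h3 : R.index = S.index) : Sy p R t' := ⟨h1, h2, by
  have : (stabilizer G t').index = (stabilizer G t).index := by
    rw [index_stabilizer, index_stabilizer, ← e, orbit_smul]
  rw [← relIndex_mul_index h2, ← relIndex_mul_index h.le, this] at h3
  exact Nat.eq_of_mul_eq_mul_right (Nat.pos_of_ne_zero FiniteIndex.index_ne_zero) h3 ▸ h.nd⟩

theorem max {R : Subgroup G} (h1 : IsPGroup p R) (h2 : S ≤ R) (h3 : R ≤ stabilizer G t) : R ≤ S := fun r hr =>
  ((h.pg.comap_subtype.toSylow h.nd).3 (h1.comap_subtype (K := stabilizer G t)) (comap_mono h2)).le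
    (show (⟨r, h3 hr⟩ : stabilizer G t) ∈ _ from hr)

theorem witt {g : G} (e : g • t = t') (h2 : S ≤ stabilizer G t') : ∃ k ∈ normalizer (S : Set G), k • t = t' := by
  have h1 := h.of_index e h.pg h2 rfl
  have h3 := h.of_index (R := S.map (MulAut.conj g : G →* G)) e (h.pg.map _) (by
    rintro _ ⟨s, hs, rfl⟩
    show (g * s * g⁻¹) • t' = t'
    rw [← e, mul_smul, inv_smul_smul, mul_smul, h.le hs]) (index_map_equiv _ _)
  obtain ⟨k, hk⟩ := exists_smul_eq (stabilizer G t') (h3.pg.comap_subtype.toSylow h3.nd) (h1.pg.comap_subtype.toSylow h1.nd)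
  refine ⟨k * g, mem_normalizer_fintype fun s hs => ?_, by rw [mul_smul, e, k.2]⟩
  have : k * ⟨g * s * g⁻¹, h3.le ⟨s, hs, rfl⟩⟩ * k⁻¹ ∈ h1.pg.comap_subtype.toSylow h1.nd := by
    rw [← hk]
    exact smul_mem_pointwise_smul _ (MulAut.conj k) _ (show _ ∈ S.map _ from ⟨s, hs, rfl⟩)
  have : (k : G) * (g * s * g⁻¹) * (k : G)⁻¹ ∈ S := this
  simpa [mul_assoc] using this

end Sy

/-- the normaliser acts on the fixed points -/
instance fxAct (S : Subgroup G) : MulAction (normalizer (S : Set G)) {x : α // ∀ s : S, (s : G) • x = x} where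
  smul g x := ⟨(g : G) • x.1, fun s => by
    have := x.2 ⟨_, (mem_normalizer_iff''.1 g.2 s).1 s.2⟩
    simpa [mul_smul, inv_smul_eq_iff] using this⟩
  one_smul x := Subtype.ext (one_smul G x.1)
  mul_smul a b x := Subtype.ext (mul_smul (a : G) (b : G) x.1)

theorem fx_eq {S : Subgroup G} {g : normalizer (S : Set G)} {x y : {x : α // ∀ s : S, (s : G) • x = x}} :
    g • x = y ↔ (g : G) • x.1 = y.1 := Subtype.ext_iff

end Grp

variable {G X Y : Type*} [Finite X] [Finite Y] {I : X → Y → Prop} {n p : ℕ} [Group G] [Finite G] [MulAction G X]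
  [MulAction G Y]

variable (G) in
/-- transitivity on triples -/
def TT (I : X → Y → Prop) : Prop := ∀ x y l x' y' l', I y l → ¬ I x l → I y' l' → ¬ I x' l' →
  ∃ g : G, g • x = x' ∧ g • y = y' ∧ g • l = l'

namespace Ac
variable (h : Ac G I n) {x y z c : X} {l m k a : Y} {g j : G}
include h

theorem tt (h2 : IsMultiplyPretransitive G X 2) : TT G I := by
  have af : ∀ x l l', ¬ I x l → ¬ I x l' → ∃ g : stabilizer G x, g • l = l' := fun x l l' hl hl' => by
    obtain ⟨b, hb, -⟩ := h.three' x l l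
    refine exists_smul_of_card_orb (z := b) ?_ (fun g e => hl' (e ▸ h.mem' g.2 hb)) fun g e => hl (e ▸ h.mem' g.2 hb)
    rw [← card_orb_eq (Γ := stabilizer G x) (X := X) fun g => h.fix_card (g : G)]
    refine card_orb_le_two (· = x) fun y z e => ?_
    by_cases e' : y = x
    · exact ⟨1, by rw [one_smul, e', e.1 e']⟩
    · obtain ⟨g, e1, e2⟩ := exists_smul2 h2 (e.not.1 e') e'
      exact ⟨⟨g, e2⟩, e1⟩
  intro x y l x' y' l' yl xl yl' xl'
  obtain ⟨g, rfl, -⟩ := exists_smul2 h2 (show x ≠ y by rintro rfl; exact xl yl) (show x' ≠ y' by rintro rfl; exact xl' yl')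
  obtain ⟨k, rfl⟩ := af (g • x) (g • l) l' ((h.inv ..).not.2 xl) xl'
  suffices ∀ x l y y', ¬ I x l → I y l → I y' l → ∃ g : G, g • x = x ∧ g • y = y' ∧ g • l = l by
    obtain ⟨u, e1, e2, e3⟩ := this (g • x) _ ((k : G) • g • y) y' xl' (by rwa [Subgroup.smul_def, h.inv, h.inv]) yl'
    exact ⟨u * k * g, by rw [mul_smul, mul_smul, k.2, e1], by rw [mul_smul, mul_smul, e2], by
      rw [mul_smul, mul_smul]; exact e3⟩
  intro x l y y' xl yl yl'
  have xy : x ≠ y := by rintro rfl; exact xl yl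
  obtain ⟨b, b1, b2⟩ := h.line x y
  obtain ⟨b', b1', b2'⟩ := h.line x y'
  have o1 : orbit (stabilizer G x) b = {b | I x b} := Set.ext fun c => ⟨by rintro ⟨g, rfl⟩; exact h.mem' g.2 b1, fun hc => by
    obtain ⟨z, hz, e, -⟩ := h.three c x x
    obtain ⟨g, e1, rfl⟩ := exists_smul2 h2 xy e.symm
    exact ⟨⟨g, e1⟩, h.eqL e ((h.inv ..).2 b2) (h.mem' e1 b1) hz hc⟩⟩
  have o2 : orbit (stabilizer G x) l = {b | ¬ I x b} := Set.ext fun c =>
    ⟨by rintro ⟨g, rfl⟩; exact h.dl.nmem g.2 xl, af x l c xl⟩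
  obtain ⟨g, e1, e2⟩ := cop (G := stabilizer G x) l b (by rw [o1, o2, h.cL, h.dl.cO]; simp) (o1.ge b1')
  exact ⟨g, g.2, h.eqP (show l ≠ b' by rintro rfl; exact xl b1') (h.mem e1 yl) yl' (e2 ▸ (h.inv ..).2 b2) b2', e1⟩

theorem ex_tr (e : x ≠ y) : ∃ l, I y l ∧ ¬ I x l := by
  obtain ⟨b, b1, b2⟩ := h.line x y
  obtain ⟨l, hl, lb, -⟩ := h.three' y b b
  exact ⟨l, hl, fun e' => lb (h.eqL e e' hl b1 b2)⟩

theorem ex_pel [Fact p.Prime] (tt : TT G I) (hp : p = 2 ∨ p ∣ n) : ∃ g : G, (∃ k, g ^ p ^ k = 1) ∧ (∃ z : X, g • z ≠ z) ∧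
    ∃ u w l, I w l ∧ ¬ I u l ∧ g • u = u ∧ g • w = w ∧ g • l = l := by
  obtain ⟨l⟩ := h.neY
  obtain ⟨u⟩ := h.neX
  obtain ⟨x, xl, -⟩ := h.off2 l u
  obtain ⟨y, yl, -⟩ := h.three l u u
  have xy : x ≠ y := by rintro rfl; exact xl yl
  obtain rfl | hp := hp
  · have o : orbit (stabilizer G y) x = {y}ᶜ := Set.ext fun c => ⟨by
      rintro ⟨g, rfl⟩ e
      exact xy (smul_left_cancel (g : G) (e.trans g.2.symm)), fun hc => by
      obtain ⟨l', h1, h2⟩ := h.ex_tr (show c ≠ y from hc)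
      obtain ⟨g, e1, e2, -⟩ := tt x y l c y l' yl xl h1 h2
      exact ⟨⟨g, e2⟩, e1⟩⟩
    obtain ⟨g, ⟨k, hk⟩, hg⟩ := ex_move (G := stabilizer G y) (p := 2) x (by
      have := Set.ncard_add_ncard_compl ({y} : Set X)
      rw [Set.ncard_singleton, h.cX] at this
      rw [o, show ({y}ᶜ : Set X).ncard = n * (n + 1) by linarith]
      exact (Nat.even_mul_succ_self n).two_dvd)
    have hk : (g : G) ^ 2 ^ k = 1 := congrArg Subtype.val hk
    obtain ⟨j, hj, h1, h2⟩ := ex_inv hk ⟨x, hg⟩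
    obtain ⟨a, b, ab, ha, hb⟩ := h.inv_two h2
    exact ⟨j, (pg_zpowers hk ⟨j, hj⟩).imp fun k hk => congrArg Subtype.val hk, h1, h.fix_triple ab ha hb⟩
  obtain ⟨b, b1, b2⟩ := h.line x y
  have o : orbit (stabilizer G (x, y)) l = {k | I y k ∧ k ≠ b} := Set.ext fun c => ⟨by
    rintro ⟨g, rfl⟩
    exact ⟨h.mem' (congrArg Prod.snd g.2) yl, fun e => h.dl.nmem (congrArg Prod.fst g.2) xl ((show (g : G) • l = b from e) ▸ b1)⟩, fun hc => by
    obtain ⟨g, e1, e2, e3⟩ := tt x y l x y c yl xl hc.1 fun e => hc.2 (h.eqL xy e hc.1 b1 b2)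
    exact ⟨⟨g, Prod.ext e1 e2⟩, e3⟩⟩
  obtain ⟨g, ⟨k, hk⟩, hg⟩ := ex_move (G := stabilizer G (x, y)) (p := p) l (by rwa [o, h.dl.cP1 b2])
  exact ⟨g, ⟨k, congrArg Subtype.val hk⟩, not_forall.1 fun e => hg (h.dl.trivP e l),
    h.fix_triple xy (congrArg Prod.fst g.2) (congrArg Prod.snd g.2)⟩

theorem fx {S : Subgroup G} {r : ℕ}
    (h' : Pl (fun (x : {x : X // ∀ s : S, (s : G) • x = x}) (l : {l : Y // ∀ s : S, (s : G) • l = l}) => I x l) r) :
    Ac (normalizer (S : Set G))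
      (fun (x : {x : X // ∀ s : S, (s : G) • x = x}) (l : {l : Y // ∀ s : S, (s : G) • l = l}) => I x l) r :=
  ⟨h', fun g x l => h.inv (g : G) x l⟩

theorem line_mod [Fact p.Prime] {S : Subgroup G} (hS : IsPGroup p S) (hl : ∀ s : S, (s : G) • l = l) :
    n + 1 ≡ {x | I x l ∧ ∀ s : S, (s : G) • x = x}.ncard [MOD p] :=
  h.cP l ▸ pfix hS {x | I x l} fun g _ hx => h.mem (hl g) hx

theorem np [Fact p.Prime] (tt : TT G I) (hp : p = 2 ∨ p ∣ n) (yl : I y l) (xl : ¬ I x l) {S : Subgroup G}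
    (hS : Sy p S (x, y, l)) : ¬ Qd I fun z => ∀ s : S, (s : G) • z = z := fun hq => by
  obtain ⟨r, h'⟩ := h.sub_fix (fun s : S => (s : G)) hq
  have st : ∀ (u w : {x : X // ∀ s : S, (s : G) • x = x}) (k : {l : Y // ∀ s : S, (s : G) • l = l}),
      S ≤ stabilizer G (u.1, w.1, k.1) := fun u w k s hs => Prod.ext (u.2 ⟨s, hs⟩) (Prod.ext (w.2 ⟨s, hs⟩) (k.2 ⟨s, hs⟩))
  have sy : ∀ (u w : {x : X // ∀ s : S, (s : G) • x = x}) (k : {l : Y // ∀ s : S, (s : G) • l = l}), I w k → ¬ I u k →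
      Sy p S (u.1, w.1, k.1) := fun u w k h1 h2 => by
    obtain ⟨g, e1, e2, e3⟩ := tt _ _ _ _ _ _ yl xl h1 h2
    exact hS.of_index (g := g) (Prod.ext e1 (Prod.ext e2 e3)) hS.pg (st u w k) rfl
  obtain ⟨g, ⟨i, hi⟩, ⟨z, hz⟩, u, w, k, h1, h2, e1, e2, e3⟩ := (h.fx h').ex_pel (p := p) (fun u w k u' w' k' h1 h2 h3 h4 => by
    obtain ⟨g, e1, e2, e3⟩ := tt _ _ _ _ _ _ h1 h2 h3 h4
    obtain ⟨g, hg, e⟩ := (sy u w k h1 h2).witt (g := g) (Prod.ext e1 (Prod.ext e2 e3)) (st u' w' k')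
    exact ⟨⟨g, hg⟩, fx_eq.2 (congrArg Prod.fst e), fx_eq.2 (congrArg (·.2.1) e), fx_eq.2 (congrArg (·.2.2) e)⟩)
    (hp.imp_right fun hp => by
      have hl : ∀ s : S, (s : G) • l = l := fun s => congrArg (·.2.2) (hS.le s.2)
      have := h.line_mod hS.pg hl
      rw [show {x | I x l ∧ ∀ s : S, (s : G) • x = x}.ncard = r + 1 from (h'.cP ⟨l, hl⟩).symm ▸
        (Set.ncard_congr (s := {x : {x : X // ∀ s : S, (s : G) • x = x} | I x l})
          (t := {x | I x l ∧ ∀ s : S, (s : G) • x = x}) (fun x _ => x.1) (fun x hx => ⟨hx, x.2⟩)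
          (fun _ _ _ _ => Subtype.ext) fun x hx => ⟨⟨x, hx.2⟩, hx.1, rfl⟩).symm] at this
      exact ((Nat.ModEq.add_right_cancel' 1 this).dvd_iff dvd_rfl).1 hp)
  have := (sy u w k h1 h2).max (hS.pg.to_sup_of_normal_left' (pg_zpowers (congrArg Subtype.val hi)) (zpowers_le.2 g.2))
    le_sup_left (sup_le (st u w k) (zpowers_le.2 (Prod.ext (fx_eq.1 e1) (Prod.ext (fx_eq.1 e2) (fx_eq.1 e3)))))
  exact hz (fx_eq.2 (z.2 ⟨g, this (mem_sup_right (mem_zpowers _))⟩))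

end Ac

end H16.OW
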