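import Cfsg.Agent.H16.OW2

/-! Ostrom-Wagner, part 3: elation groups `Ac.T`, Andre's lemma, and `Pl.pp`: a plane of odd order in which every triple is
fixed by an involutory perspectivity has prime power order. -/

set_option autoImplicit false
set_option linter.unusedSectionVars false

namespace H16.OW
open Subgroup MulAction

variable {G X Y : Type*} [Finite X] [Finite Y] {I : X → Y → Prop} {n p : ℕ} [Group G] [Finite G] [MulAction G X]
  [MulAction G Y] {x y z c : X} {l m k a b : Y} {g j s t : G}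

theorem Ax.mul (h1 : Ax I s a) (h2 : Ax I t a) : Ax I (s * t) a := fun x hx => by rw [mul_smul, h2 x hx, h1 x hx]

theorem Ax.inv (h1 : Ax I s a) : Ax I s⁻¹ a := fun x hx => inv_smul_eq_iff.2 (h1 x hx).symm

theorem Ax.pow (h1 : Ax I s a) (i : ℕ) : Ax I (s ^ i) a := fun x hx => (stabilizer G x).pow_mem (h1 x hx) i

theorem ex_prime_pow {p : ℕ} (hp : p.Prime) (hd : p ∣ orderOf g) : ∃ k, g ^ k ≠ 1 ∧ (g ^ k) ^ p = 1 := by
  have := orderOf_pow_orderOf_div (orderOf_pos g).ne' hd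
  exact ⟨_, fun e => hp.ne_one (by rw [← this, e, orderOf_one]), this ▸ pow_orderOf_eq_one _⟩

/-- there is an involution with centre `c` and axis `a` -/
def Ho (G : Type*) [Group G] [MulAction G X] [MulAction G Y] (I : X → Y → Prop) (c : X) (a : Y) : Prop :=
  ∃ j : G, j ≠ 1 ∧ j * j = 1 ∧ Ax I j a ∧ Ax (fun l x => I x l) j c

theorem Ho.dual (h : Ho G I c a) : Ho G (fun l x => I x l) a c := h.imp fun _ ⟨h1, h2, h3, h4⟩ => ⟨h1, h2, h4, h3⟩

namespace Ac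
variable (h : Ac G I n)
include h

theorem ax_conj (h1 : Ax I s a) (k : G) : Ax I (k * s * k⁻¹) (k • a) := fun x hx => by
  rw [mul_smul, mul_smul, h1 _ (by rwa [← h.inv k, smul_inv_smul]), smul_inv_smul]

theorem faith [FaithfulSMul G X] : FaithfulSMul G Y :=
  faithfulSMul_iff.2 fun _ hg => eq_one_of_forall_smul (α := X) (h.trivP hg)

variable [FaithfulSMul G X]

theorem ce2 (h1 : Ax (fun l x => I x l) g c) (h2 : Ax (fun l x => I x l) g x) (e : c ≠ x) : g = 1 :=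
  eq_one_of_forall_smul (α := X) (h.dl.two_ax h1 h2 e)

theorem one (ha : Ax I g a) (hc : Ax (fun l x => I x l) g c) (hx : ¬ I x a) (xc : x ≠ c) (e : g • x = x) : g = 1 :=
  eq_one_of_forall_smul (α := X) (h.triv ha hc hx xc e)

theorem one' (ha : Ax I g a) (hc : Ax (fun l x => I x l) g c) (hx : ¬ I c l) (xc : l ≠ a) (e : g • l = l) : g = 1 :=
  eq_one_of_forall_smul (α := X) (h.trivP (h.dl.triv hc ha hx xc e))

/-- the elations with axis `b` -/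
def T (b : Y) : Subgroup G where
  carrier := {g | Ax I g b ∧ ∃ c, I c b ∧ Ax (fun l x => I x l) g c}
  one_mem' := ⟨fun _ _ => one_smul .., (h.point b b).imp fun _ hc => ⟨hc.1, fun _ _ => one_smul ..⟩⟩
  inv_mem' := fun ⟨h1, c, h2, h3⟩ => ⟨h1.inv, c, h2, h3.inv⟩
  mul_mem' := fun {s t} ⟨h1, c₁, h2, h3⟩ ⟨h4, c₂, h5, h6⟩ => ⟨h1.mul h4, by
    by_cases e : c₁ = c₂
    · exact ⟨c₁, h2, h3.mul (e ▸ h6)⟩
    obtain ⟨c, hc⟩ := h.ex_ce (h1.mul h4)
    by_cases cb : I c b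
    · exact ⟨c, cb, hc⟩
    by_cases e' : t • c = c
    · obtain rfl := h.one h4 h6 cb (by rintro rfl; exact cb h5) e'
      exact ⟨c₁, h2, by simpa using h3⟩
    obtain ⟨k, k1, k2⟩ := h.line c c₁
    obtain ⟨k', k3, k4⟩ := h.line c c₂
    have e1 : s⁻¹ • c = t • c := by rw [inv_smul_eq_iff, ← mul_smul, h.dl.ax_fix hc]
    obtain rfl := h.eqL e' (e1 ▸ h.mem (h3.inv k k2) k1) k1 (h.mem (h6 k' k4) k3) k3
    exact absurd (h.eqL e k2 k4 h2 h5 ▸ k1) cb⟩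

theorem comm (hs : Ax I s b) (ht : Ax I t b) (h1 : I c b) (h2 : I x b) (h3 : Ax (fun l x => I x l) s c)
    (h4 : Ax (fun l x => I x l) t x) (e : c ≠ x) : Commute s t := by
  have e1 := (hs x h2 ▸ h.dl.ax_conj h4 s).mul h4.inv
  have e2 := h3.mul (ht c h1 ▸ h.dl.ax_conj h3.inv t)
  exact commutatorElement_eq_one_iff_commute.1 (h.ce2 (by simpa only [commutatorElement_def, mul_assoc] using e2) e1 e)

theorem step (hs : Ax I s b) (ht : Ax I t b) (h1 : I c b) (h2 : I x b) (h3 : Ax (fun l x => I x l) s c)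
    (h4 : Ax (fun l x => I x l) t x) (e : c ≠ x) (s1 : s ≠ 1) (sp : s ^ p = 1) : t ^ p = 1 := by
  obtain ⟨-, w, -, hw⟩ := mul_mem (show s ∈ h.T b from ⟨hs, c, h1, h3⟩) (show t ∈ h.T b from ⟨ht, x, h2, h4⟩)
  refine h.ce2 (by simpa [(h.comm hs ht h1 h2 h3 h4 e).mul_pow, sp] using hw.pow p) (h4.pow p) ?_
  rintro rfl
  exact s1 (h.ce2 h3 (by simpa using hw.mul h4.inv) e)

theorem pgrp (hs : Ax I s b) (ht : Ax I t b) (h1 : I c b) (h2 : I x b) (h3 : Ax (fun l x => I x l) s c)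
    (h4 : Ax (fun l x => I x l) t x) (e : c ≠ x) (s1 : s ≠ 1) (t1 : t ≠ 1) : ∃ p, p.Prime ∧ IsPGroup p (h.T b) := by
  obtain ⟨p, hp, hd⟩ := Nat.exists_prime_and_dvd (orderOf_eq_one_iff.not.2 s1)
  obtain ⟨k, k1, k2⟩ := ex_prime_pow hp hd
  refine ⟨p, hp, fun ⟨u, hu, w, w1, w2⟩ => ⟨1, Subtype.ext ?_⟩⟩
  rw [pow_one]
  by_cases e' : c = w
  · exact h.step ht hu h2 w1 h4 w2 (e' ▸ e.symm) t1 (h.step (hs.pow k) ht h1 h2 (h3.pow k) h4 e k1 k2)
  · exact h.step (hs.pow k) hu h1 w1 (h3.pow k) w2 e' k1 k2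

theorem hom (ho : Odd n) (hH : Ho G I c a) : ¬ I c a := fun e => by
  obtain ⟨j, j1, j2, ha, hc⟩ := hH
  obtain ⟨k, k1, k2, -⟩ := h.three' c a a
  have := h.line_mod (l := k) (pg_zpowers (p := 2) (k := 1) (g := j) (by rw [pow_one, sq, j2])) fun s =>
    zpowers_le.2 (show j ∈ stabilizer G k from hc k k1) s.2
  rw [show {x | I x k ∧ ∀ s : zpowers j, (s : G) • x = x} = {c} from Set.eq_singleton_iff_unique_mem.2 ⟨⟨k1, fun s =>
    zpowers_le.2 (show j ∈ stabilizer G c from ha c e) s.2⟩, fun y hy => by_contra fun e' => j1 (h.one ha hc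
      (fun ya => e' (h.eqP k2 hy.1 k1 ya e)) e' (hy.2 ⟨j, mem_zpowers j⟩))⟩, Set.ncard_singleton] at this
  obtain ⟨r, rfl⟩ := ho
  rw [Nat.ModEq] at this
  omega

theorem andre (ho : Odd n) (h1 : Ho G I c a) (h2 : Ho G I x a) : ∃ t ∈ h.T a, t • c = x := by
  by_cases e : c = x
  · exact ⟨1, one_mem _, by simpa using e⟩
  obtain ⟨s, s1, s2, s3, s4⟩ := h1
  obtain ⟨t, t1, t2, t3, t4⟩ := h2
  have si : s⁻¹ = s := inv_eq_of_mul_eq_one_right s2
  have ti : t⁻¹ = t := inv_eq_of_mul_eq_one_right t2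
  have hρ : s * t ∈ h.T a := by
    obtain ⟨w, hw⟩ := h.ex_ce (s3.mul t3)
    by_cases e1 : s * t = 1
    · exact e1 ▸ one_mem _
    refine ⟨s3.mul t3, w, by_contra fun wa => e ?_, hw⟩
    have k : ∀ u, u * (s * t) * u⁻¹ = (s * t)⁻¹ → u • w = w := fun u hu => by_contra fun e =>
      e1 (inv_eq_one.1 (h.ce2 (hu ▸ h.dl.ax_conj hw u) hw.inv e))
    rw [← by_contra fun e => s1 (h.one s3 s4 wa e (k s (by rw [mul_inv_rev, si, ti, ← mul_assoc, s2, one_mul]))),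
      ← by_contra fun e => t1 (h.one t3 t4 wa e (k t (by rw [mul_inv_rev, si, ti, mul_assoc, mul_assoc, t2, mul_one])))]
  obtain ⟨i, hi⟩ : Odd (orderOf (s * t)) := Nat.not_even_iff_odd.1 fun he => by
    by_cases e1 : s * t = 1
    · simp [e1] at he
    obtain ⟨k, k1, k2⟩ := ex_prime_pow Nat.prime_two he.two_dvd
    obtain ⟨u1, w, w1, w2⟩ := pow_mem hρ k
    exact h.hom ho ⟨_, k1, by rw [← sq, k2], u1, w2⟩ w1
  refine ⟨(s * t) ^ i, pow_mem hρ _, by_contra fun e' => t1 (h.ce2 ?_ t4 e')⟩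
  have e1 : SemiconjBy s ((s * t)⁻¹ ^ i) ((s * t) ^ i) :=
    (show SemiconjBy s (s * t)⁻¹ (s * t) by rw [SemiconjBy, mul_inv_rev, si, ti, mul_assoc]).pow_right i
  convert h.dl.ax_conj s4 ((s * t) ^ i)
  rw [mul_assoc, ← inv_pow, e1.eq, ← mul_assoc, ← pow_add, ← two_mul, eq_comm, ← mul_left_inj t, t2, mul_assoc, ← pow_succ, ← hi,
    pow_orderOf_eq_one]

/-- the elations with axis `b` are transitive on the other lines through `y` -/
def Be (y : X) (b : Y) : Prop := ∀ l l', I y l → l ≠ b → I y l' → l' ≠ b → ∃ t ∈ h.T b, t • l = l'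

theorem orb_sub (yb : I y b) (yl : I y l) (lb : l ≠ b) : orbit (h.T b) l ⊆ {l | I y l ∧ l ≠ b} := by
  rintro _ ⟨t, rfl⟩
  exact ⟨h.mem' (t.2.1 y yb) yl, fun e => lb (smul_left_cancel (t : G) (e.trans (h.ax_fix t.2.1).symm))⟩

theorem be_move (yb : I y b) (hb : h.Be y b) :
    ∃ (t : G) (c : X), t ≠ 1 ∧ Ax I t b ∧ I c b ∧ Ax (fun l x => I x l) t c ∧ c ≠ y := by
  obtain ⟨l, yl, lb, -⟩ := h.three' y b b
  obtain ⟨m, ym, mb, ml⟩ := h.three' y b l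
  obtain ⟨t, ⟨h1, c, h2, h3⟩, rfl⟩ := hb l m yl lb ym mb
  exact ⟨t, c, by rintro rfl; simp at ml, h1, h2, h3, by rintro rfl; exact ml (h3 l yl)⟩

theorem be_pp (yb : I y b) (hb : h.Be y b) (hp : ∃ p, p.Prime ∧ IsPGroup p (h.T b)) : ∃ p r, p.Prime ∧ n = p ^ r := by
  obtain ⟨p, hp, hG⟩ := hp
  have := Fact.mk hp
  obtain ⟨l, yl, lb, -⟩ := h.three' y b b
  obtain ⟨r, hr⟩ := hG.card_orbit l
  rw [Nat.card_coe_set_eq, (h.orb_sub yb yl lb).antisymm fun m hm => (hb l m yl lb hm.1 hm.2).elim fun t ht =>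
    ⟨⟨t, ht.1⟩, ht.2⟩, h.dl.cP1 yb] at hr
  exact ⟨p, r, hp, hr⟩

theorem pp_of [FaithfulSMul G Y] (ab : ∀ y b, I y b → h.dl.Be b y ∨ h.Be y b) (yb : I y b) (hb : h.Be y b) :
    ∃ p r, p.Prime ∧ n = p ^ r := by
  obtain ⟨t, c, t1, h1, h2, h3, -⟩ := h.be_move yb hb
  obtain h' | h' := ab c b h2
  · obtain ⟨s, a, s1, h4, h5, h6, e⟩ := h.dl.be_move h2 h'
    exact h.dl.be_pp h2 h' (h.dl.pgrp h4 h3 h5 h2 h6 h1 e s1 t1)
  · obtain ⟨s, a, s1, h4, h5, h6, e⟩ := h.be_move h2 h'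
    exact h.be_pp h2 h' (h.pgrp h4 h1 h5 h2 h6 h3 e s1 t1)

theorem ab [FaithfulSMul G Y] (ho : Odd n) (tp : ∀ x y l, I y l → ¬ I x l → ∃ j : G, j ≠ 1 ∧ j * j = 1 ∧ (∃ a, Ax I j a) ∧
    j • x = x ∧ j • y = y ∧ j • l = l) (y : X) (b : Y) (yb : I y b) : h.dl.Be b y ∨ h.Be y b := by
  by_cases U : ∀ x, I x b → x ≠ y → ∃ a, I x a ∧ Ho G I y a
  · refine .inl fun x x' xb xy xb' xy' => ?_
    obtain ⟨a, h1, h2⟩ := U x xb xy
    obtain ⟨a', h3, h4⟩ := U x' xb' xy'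
    obtain ⟨e, he, rfl⟩ := h.dl.andre ho h2.dual h4.dual
    exact ⟨e, he, h.eqP (show b ≠ e • a from fun e' => h.hom ho h4 (e' ▸ yb)) (h.mem (he.1 b yb) xb) xb'
      ((h.inv ..).2 h1) h3⟩
  push Not at U
  obtain ⟨x, xb, xy, U⟩ := U
  have tp' : ∀ l, I y l → l ≠ b → Ho G I x l ∨ ∃ c, I c l ∧ Ho G I c b := fun l yl lb => by
    have xl : ¬ I x l := fun e => lb (h.eqL xy e yl xb yb)
    obtain ⟨j, j1, j2, ⟨a, ha⟩, e1, e2, e3⟩ := tp x y l yl xl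
    obtain ⟨c, hc⟩ := h.ex_ce ha
    by_cases e : x = c
    · subst e
      obtain rfl : l = a := by_contra fun e => j1 (h.one' ha hc xl e e3)
      exact .inl ⟨j, j1, j2, ha, hc⟩
    have xa : I x a := by_contra fun e' => j1 (h.one ha hc e' e e1)
    have yc : y ≠ c := by rintro rfl; exact U a xa ⟨j, j1, j2, ha, hc⟩
    obtain rfl := h.eqL xy xa (by_contra fun e' => j1 (h.one ha hc e' yc e2)) xb yb
    exact .inr ⟨c, by_contra fun e' => j1 (h.one' ha hc e' lb e3), j, j1, j2, ha, hc⟩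
  have c1 : ∀ l l', I y l → I y l' → Ho G I x l → Ho G I x l' → l' ∈ orbit (h.T b) l := fun l l' yl yl' h1 h2 => by
    obtain ⟨e, ⟨h3, a, h4, h5⟩, rfl⟩ := h.dl.andre ho h1.dual h2.dual
    have ey : e • y = y := h.eqP (show b ≠ e • l from fun e' => h.hom ho h2 (e' ▸ xb)) (h.mem (h3 b xb) yb) yb
      ((h.inv ..).2 yl) yl'
    by_cases e' : I y a
    · obtain rfl := h.eqL xy h4 e' xb yb
      exact ⟨⟨e, h5, x, xb, h3⟩, rfl⟩
    · obtain rfl := h.one h5 h3 e' xy.symm ey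
      exact ⟨1, rfl⟩
  have c2 : ∀ l l', I y l → I y l' → (∃ c, I c l ∧ Ho G I c b) → (∃ c, I c l' ∧ Ho G I c b) → l' ∈ orbit (h.T b) l :=
    fun l l' yl yl' ⟨c, h1, h2⟩ ⟨c', h3, h4⟩ => by
      obtain ⟨t, ht, rfl⟩ := h.andre ho h2 h4
      exact ⟨⟨t, ht⟩, h.eqL (show y ≠ t • c from fun e => h.hom ho h4 (e ▸ yb)) (h.mem' (ht.1 y yb) yl) ((h.inv ..).2 h1) yl' h3⟩
  have st : ∀ l l', I y l → l ≠ b → I y l' → stabilizer (h.T b) l ≤ stabilizer (h.T b) l' :=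
    fun l l' yl lb yl' ⟨t, h1, c, h2, h3⟩ ht => by
      by_cases e : c = y
      · exact h3 l' (e ▸ yl')
      obtain rfl := h.one' h1 h3 (fun e' => lb (h.eqL e e' yl h2 yb)) lb ht
      exact one_smul G l'
  refine .inr fun l l' yl lb yl' lb' => by_contra fun hn => ?_
  have hn' : l' ∉ orbit (h.T b) l := fun ⟨t, ht⟩ => hn ⟨t, t.2, ht⟩
  have e := Set.ncard_union_eq (s := orbit (h.T b) l) (t := orbit (h.T b) l') (Set.disjoint_left.2 fun m h1 h2 =>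
    hn' (by rw [← orbit_eq_iff.2 h1, orbit_eq_iff.2 h2]; exact mem_orbit_self _))
  rw [(Set.union_subset (h.orb_sub yb yl lb) (h.orb_sub yb yl' lb')).antisymm fun m hm => ?_, h.dl.cP1 yb,
    ← index_stabilizer, ← index_stabilizer, (st l l' yl lb yl').antisymm (st l' l yl' lb' yl)] at e
  · exact Nat.not_even_iff_odd.2 ho ⟨_, e⟩
  rcases tp' l yl lb with h1 | h1 <;> rcases tp' l' yl' lb' with h2 | h2 <;> rcases tp' m hm.1 hm.2 with h3 | h3
  all_goals first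
    | exact .inl (c1 _ _ yl hm.1 h1 h3) | exact .inl (c2 _ _ yl hm.1 h1 h3) | exact .inr (c1 _ _ yl' hm.1 h2 h3)
    | exact .inr (c2 _ _ yl' hm.1 h2 h3) | exact absurd (c1 _ _ yl yl' h1 h2) hn' | exact absurd (c2 _ _ yl yl' h1 h2) hn'

end Ac

/-- the collineation group -/
def Col (I : X → Y → Prop) : Subgroup (Equiv.Perm X × Equiv.Perm Y) where
  carrier := {g | ∀ x l, I (g.1 x) (g.2 l) ↔ I x l}
  one_mem' := fun _ _ => .rfl
  mul_mem' := fun h1 h2 _ _ => (h1 ..).trans (h2 ..)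
  inv_mem' := fun {g} h1 x l => by rw [← h1]; simp

instance : MulAction (Col I) X := MulAction.compHom X ((MonoidHom.fst _ _).comp (Col I).subtype)

instance : MulAction (Col I) Y := MulAction.compHom Y ((MonoidHom.snd _ _).comp (Col I).subtype)

theorem Pl.col (h : Pl I n) : Ac (Col I) I n := ⟨h, fun g => g.2⟩

theorem Pl.faith (h : Pl I n) : FaithfulSMul (Col I) X := faithfulSMul_iff.2 fun _ hg =>
  Subtype.ext (Prod.ext (Equiv.ext hg) (Equiv.ext (h.col.dl.trivP hg)))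

theorem Ac.pp (h : Ac G I n) (ho : Odd n) (tp : ∀ x y l, I y l → ¬ I x l → ∃ j : G, (∃ z : X, j • z ≠ z) ∧
    (∀ z : X, j • j • z = z) ∧ (∃ a, Ax I j a) ∧ j • x = x ∧ j • y = y ∧ j • l = l) : ∃ p r, p.Prime ∧ n = p ^ r := by
  have := h.toPl.faith
  have := h.col.faith
  have ab := h.col.ab ho fun x y l h1 h2 => by
    obtain ⟨j, ⟨z, hz⟩, h3, r⟩ := tp x y l h1 h2
    exact ⟨⟨(toPerm j, toPerm j), h.inv j⟩, fun e => hz (congrArg (· • z) e), eq_one_of_forall_smul (α := X) h3, r⟩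
  obtain ⟨b⟩ := h.neY
  obtain ⟨y, yb, -⟩ := h.point b b
  obtain h' | h' := ab y b yb
  · exact h.col.dl.pp_of (fun b y yb => (ab y b yb).symm) yb h'
  · exact h.col.pp_of ab yb h'

end H16.OW
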