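import Cfsg.Agent.H16.OW3

/-! Ostrom-Wagner, part 4: towers of Baer subplanes (`tower`), a 2-transitive collineation group contains a non-trivial
perspectivity (`Ac.main`), and the lines are O'Nan's lines (`Ac.col_iff`). -/

set_option autoImplicit false
set_option linter.unusedSectionVars false

namespace H16.OW
open Subgroup MulAction

variable {G X Y : Type*} [Finite X] [Finite Y] {I : X → Y → Prop} {n p : ℕ} [Group G] [Finite G] [MulAction G X]
  [MulAction G Y] {x y z c : X} {l m k a b : Y} {g j s t : G}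

theorem sq_inj {a b : ℕ} (e : a ^ 2 + a + 1 = b ^ 2 + b + 1) : a = b := by
  rcases lt_trichotomy a b with h | h | h
  · nlinarith
  · exact h
  · nlinarith

theorem Ac.qd_lift (h : Ac G I n) {S : Subgroup G} {A : X → Prop} (hq : Qd I A) (hA : ∀ x, A x → ∀ s : S, (s : G) • x = x) :
    Qd (fun (x : {x : X // ∀ s : S, (s : G) • x = x}) (l : {l : Y // ∀ s : S, (s : G) • l = l}) => I x l) fun x => A x := by
  obtain ⟨a, b, c, d, m, k, ha, hb, hc, hd, ab, cd, am, bm, ck, dk, r⟩ := hq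
  exact ⟨⟨a, hA a ha⟩, ⟨b, hA b hb⟩, ⟨c, hA c hc⟩, ⟨d, hA d hd⟩, ⟨m, fun s => h.fixL ab (hA a ha s) (hA b hb s) am bm⟩,
    ⟨k, fun s => h.fixL cd (hA c hc s) (hA d hd s) ck dk⟩, ha, hb, hc, hd, fun e => ab (congrArg Subtype.val e),
    fun e => cd (congrArg Subtype.val e), am, bm, ck, dk, r⟩

theorem Qd.proj {A A' : X → Prop} {B : Y → Prop} {P : Subtype A → Prop}
    (hq : Qd (fun (x : Subtype A) (l : Subtype B) => I x l) P) (h : ∀ x, P x → A' x) : Qd I A' := by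
  obtain ⟨a, b, c, d, m, k, ha, hb, hc, hd, ab, cd, r⟩ := hq
  exact ⟨a, b, c, d, m, k, h a ha, h b hb, h c hc, h d hd, fun e => ab (Subtype.ext e), fun e => cd (Subtype.ext e), r⟩

universe u in
theorem tower (i : ℕ) : ∀ {K : Type u} [Group K] [MulAction K X] [MulAction K Y], Ac K I n → Nat.card K = 2 ^ i →
    (Qd I fun x => ∀ s : K, s • x = x) → ∀ r, Nat.card {x : X // ∀ s : K, s • x = x} = r ^ 2 + r + 1 →
    ∃ e, n = r ^ 2 ^ e := by
  induction i with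
  | zero =>
    intro K _ _ _ h hK _ r hr
    have := (Nat.card_eq_one_iff_unique.1 hK).1
    rw [Nat.card_congr (Equiv.subtypeUnivEquiv fun x s => by rw [Subsingleton.elim s 1, one_smul]), h.cX] at hr
    exact ⟨0, by simpa using sq_inj hr⟩
  | succ i ih =>
    intro K _ _ _ h hK hq r hr
    have : Finite K := Nat.finite_of_card_ne_zero (by simp [hK])
    obtain ⟨S, hS⟩ := Sylow.exists_subgroup_card_pow_prime (G := K) 2 (n := i) (by rw [hK]; exact pow_dvd_pow _ (by omega))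
    have hi : S.index = 2 := by
      have := S.card_mul_index
      rw [hS, hK, pow_succ] at this
      exact Nat.eq_of_mul_eq_mul_left (by positivity) this
    have := normal_of_index_eq_two hi
    obtain ⟨r', h'⟩ := h.sub_fix (fun s : S => (s : K)) (hq.mono fun x hx s => hx s)
    obtain ⟨e, he⟩ := ih (K := S) ⟨h.toPl, fun g => h.inv (g : K)⟩ hS (hq.mono fun x hx s => hx s) r' h'.cX
    obtain ⟨j, hj⟩ : ∃ j, j ∉ S := not_forall.1 fun e => by simp [(eq_top_iff' S).2 e] at hi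
    let j' : normalizer (S : Set K) := ⟨j, by rw [normalizer_eq_top]; trivial⟩
    obtain ⟨r'', h''⟩ := (h.fx h').sub_fix1 (j := j')
      ((h.qd_lift hq fun x hx s => hx s).mono fun x hx => fx_eq.2 (hx j))
    obtain rfl : r = r'' := by
      suffices ∀ x : {x : {x : X // ∀ s : S, (s : K) • x = x} // j' • x = x}, ∀ s : K, s • x.1.1 = x.1.1 from
        sq_inj (hr.symm.trans ((Nat.card_congr ⟨fun x => ⟨⟨x.1, fun s => x.2 s⟩, fx_eq.2 (x.2 j)⟩,
          fun x => ⟨x.1.1, this x⟩, fun _ => rfl, fun _ => rfl⟩).trans h''.cX))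
      intro x s
      by_cases e : s ∈ S
      · exact x.1.2 ⟨s, e⟩
      have := x.1.2 ⟨j * s, (mul_mem_iff_of_index_two hi).2 (iff_of_false hj e)⟩
      exact smul_left_cancel j ((mul_smul ..).symm.trans (this.trans (fx_eq.1 x.2).symm))
    by_cases e' : ∀ x : {x : X // ∀ s : S, (s : K) • x = x}, j' • x = x
    · exact ⟨e, by rw [he, h'.ord_eq h'' (Nat.card_congr (Equiv.subtypeUnivEquiv e')).symm]⟩
    obtain ⟨x, hx⟩ := not_forall.1 e'
    refine ⟨e + 1, ?_⟩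
    rw [he, (h.fx h').baer (fun x => fx_eq.2 ((mul_smul ..).symm.trans (x.2 ⟨_, mul_self_mem_of_index_two hi j⟩))) hx h'',
      ← pow_mul, pow_succ']

theorem ex_norm [Fact p.Prime] {K S : Subgroup G} (hS : IsPGroup p S) (h : K < S) :
    ∃ g ∈ S, g ∈ normalizer (K : Set G) ∧ g ∉ K := by
  have := hS.isNilpotent
  obtain ⟨g, h1, h2⟩ := SetLike.exists_of_lt (Group.normalizerCondition_of_isNilpotent (K.subgroupOf S)
    (lt_top_iff_ne_top.2 fun e => h.2 (subgroupOf_eq_top.1 e)))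
  exact ⟨g, g.2, mem_normalizer_fintype fun k hk => (mem_normalizer_iff.1 h1 ⟨k, h.le hk⟩).1 hk, h2⟩

theorem ex_cen [Fact p.Prime] {P : Subgroup G} (hP : IsPGroup p P) (h : P ≠ ⊥) :
    ∃ z ∈ P, z ≠ 1 ∧ ∀ g ∈ P, g * z = z * g := by
  have := (nontrivial_iff_ne_bot P).2 h
  obtain ⟨z, hz⟩ := @exists_ne _ hP.center_nontrivial 1
  exact ⟨z, z.1.2, fun e => hz (Subtype.ext (Subtype.ext e)), fun g hg =>
    congrArg Subtype.val (mem_center_iff.1 z.2 ⟨g, hg⟩)⟩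

theorem Sy.pdvd {α β : Type*} [MulAction G α] [MulAction G β] [Finite β] [Fact p.Prime] {P : Subgroup G} {t : α} (h : Sy p P t) (a : β)
    {k : ℕ} (e : p ^ k ∣ (orbit (stabilizer G t) a).ncard) : p ^ k ∣ (orbit P a).ncard := by
  rw [orb_card] at e ⊢
  refine ((Fact.out : p.Prime).coprime_pow_of_not_dvd h.nd).symm.dvd_of_dvd_mul_right (e.trans ?_)
  rw [← relIndex_subgroupOf h.le]
  exact dvd_rel _ _

theorem ne_bot_of {α : Type*} [MulAction G α] [Finite α] {P : Subgroup G} {a : α} (h : (orbit P a).ncard ≠ 1) : P ≠ ⊥ := by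
  rintro rfl
  exact h (by rw [orb_card, relIndex_bot_right])

namespace Ac
variable (h : Ac G I n)
include h

theorem ppow (tt : TT G I) (ho : Odd n) : ∃ p r, p.Prime ∧ n = p ^ r := by
  obtain ⟨K, -, ⟨hK, hq⟩, mx⟩ := Finite.exists_le_maximal (a := (⊥ : Subgroup G))
    (p := fun K : Subgroup G => IsPGroup 2 K ∧ Qd I fun x => ∀ s : K, (s : G) • x = x)
    ⟨IsPGroup.of_bot, h.qd.mono fun x _ s => by rw [mem_bot.1 s.2, one_smul]⟩
  have mx : ∀ g ∈ normalizer (K : Set G), (∃ i, g ^ 2 ^ i = 1) → (Qd I fun x => (∀ s : K, (s : G) • x = x) ∧ g • x = x) →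
      g ∈ K := fun g hg ⟨i, hi⟩ hq => mx ⟨hK.to_sup_of_normal_left' (pg_zpowers hi) (zpowers_le.2 hg), hq.mono fun x hx s =>
        sup_le (c := stabilizer G x) (fun s hs => hx.1 ⟨s, hs⟩) (zpowers_le.2 hx.2) s.2⟩ le_sup_left (mem_sup_right (mem_zpowers g))
  obtain ⟨r, h'⟩ := h.sub_fix (fun s : K => (s : G)) hq
  obtain ⟨i, hi⟩ := IsPGroup.iff_card.1 hK
  obtain ⟨e, he⟩ := tower i (K := K) ⟨h.toPl, fun g => h.inv (g : G)⟩ hi hq r h'.cX
  obtain ⟨p, s, hp, rfl⟩ := (h.fx h').pp ((Nat.odd_pow_iff (by positivity)).1 (he ▸ ho)) fun x y l yl xl => by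
    obtain ⟨S, KS, hS⟩ := ex_sy hK (t := (x.1, y.1, l.1)) fun s hs =>
      Prod.ext (x.2 ⟨s, hs⟩) (Prod.ext (y.2 ⟨s, hs⟩) (l.2 ⟨s, hs⟩))
    obtain ⟨g, gS, gN, gK⟩ := ex_norm hS.pg (KS.lt_of_ne (by rintro rfl; exact h.np tt (.inl rfl) yl xl hS hq))
    obtain ⟨i, hi⟩ := hS.pg ⟨g, gS⟩
    have hi : g ^ 2 ^ i = 1 := congrArg Subtype.val hi
    have hi : (⟨g, gN⟩ : normalizer (K : Set G)) ^ 2 ^ i = 1 := Subtype.ext hi
    obtain ⟨j, hj, ⟨z, hz⟩, h2⟩ := ex_inv (α := {x : X // ∀ s : K, (s : G) • x = x}) hi (not_forall.1 fun e =>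
      gK (mx g gN ⟨i, congrArg Subtype.val hi⟩ (hq.mono fun x hx => ⟨hx, fx_eq.1 (e ⟨x, hx⟩)⟩)))
    have := hS.le (zpowers_le.2 (show _ ∈ S.subgroupOf _ from gS) hj)
    exact ⟨j, ⟨z, hz⟩, h2, ((h.fx h').inv2 h2).resolve_right fun hq => hz (fx_eq.2 (z.2 ⟨j, mx j j.2
      ((pg_zpowers hi ⟨j, hj⟩).imp fun _ e => congrArg (·.1.1) e) (hq.proj fun x hx => ⟨x.2, fx_eq.1 hx⟩)⟩)),
      fx_eq.2 (congrArg Prod.fst this), fx_eq.2 (congrArg (·.2.1) this), fx_eq.2 (congrArg (·.2.2) this)⟩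
  exact ⟨p, _, hp, by rw [he, ← pow_mul]⟩

theorem cen_pp (tt : TT G I) {r : ℕ} (hp : p.Prime) (hn : n = p ^ r) :
    ∃ (g : G) (c : X), g ≠ 1 ∧ Ax (fun l x => I x l) g c := by
  have := Fact.mk hp
  have n2 := h.two
  have pn : p ∣ n := hn ▸ dvd_pow_self _ (by rintro rfl; simp [hn] at n2)
  obtain ⟨l⟩ := h.neY
  obtain ⟨x, xl, -⟩ := h.point l l
  obtain ⟨P, -, hP⟩ := ex_sy (p := p) IsPGroup.of_bot (t := (x, l)) (bot_le (α := Subgroup G))
  have Px : ∀ g ∈ P, g • x = x := fun g hg => congrArg Prod.fst (hP.le hg)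
  have Pl : ∀ g ∈ P, g • l = l := fun g hg => congrArg Prod.snd (hP.le hg)
  have o1 : ∀ o, ¬ I o l → (orbit (stabilizer G (x, l)) o).ncard = n ^ 2 := fun o ho => by
    rw [← h.cO l]
    refine congrArg _ (Set.ext fun y => ⟨by rintro ⟨g, rfl⟩; exact h.nmem (congrArg Prod.snd g.2) ho, fun hy => ?_⟩)
    obtain ⟨g, e1, e2, e3⟩ := tt o x l y x l xl ho xl hy
    exact ⟨⟨g, Prod.ext e2 e3⟩, e1⟩
  have o2 : ∀ o, ¬ I o l → (orbit P o).ncard = n ^ 2 := fun o ho => by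
    have := hP.pdvd o (k := r * 2) (by rw [o1 o ho, hn, pow_mul])
    rw [pow_mul, ← hn] at this
    refine le_antisymm ?_ (Nat.le_of_dvd ((Set.ncard_pos (Set.toFinite _)).2 ⟨o, mem_orbit_self o⟩) this)
    rw [← o1 o ho]
    exact Set.ncard_le_ncard (by rintro _ ⟨g, rfl⟩; exact ⟨⟨g, hP.le g.2⟩, rfl⟩)
  obtain ⟨o, ho, -⟩ := h.off2 l x
  obtain ⟨ζ, h1, h2, h3⟩ := ex_cen hP.pg (ne_bot_of (a := o) (by rw [o2 o ho]; nlinarith))
  refine ⟨ζ, x, h2, fun b xb => ?_⟩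
  by_cases e : b = l
  · exact e ▸ Pl ζ h1
  obtain ⟨o, ob, ox, -⟩ := h.three b x x
  have ol : ¬ I o l := fun e' => ox (h.eqP e ob xb e' xl)
  have e1 : stabilizer G (o, x, l) = stabilizer G o ⊓ stabilizer G (x, l) := by ext; simp
  have hS : Sy p (stabilizer G o ⊓ P) (o, x, l) := ⟨hP.pg.to_inf_right, e1 ▸ inf_le_inf_left _ hP.le, by
    have e2 := relIndex_mul_relIndex _ _ _ (inf_le_inf_left (stabilizer G o) hP.le) inf_le_right
    rw [← relIndex_mul_relIndex _ _ _ inf_le_right hP.le, inf_relIndex_right, inf_relIndex_right, ← orb_card, ← orb_card,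
      o1 o ol, o2 o ol, mul_comm] at e2
    rw [e1, Nat.eq_of_mul_eq_mul_left (by positivity) e2]
    exact hP.nd⟩
  have ox' : ζ • o ≠ x := fun e => h.nmem (Pl ζ h1) ol (e ▸ xl)
  refine h.eqL ox' ((h.inv ..).2 ob) (h.mem' (Px ζ h1) xb) (by_contra fun hb => h.np tt (.inr pn) xl ol hS ?_) xb
  have fo : ∀ s : ↥(stabilizer G o ⊓ P), (s : G) • o = o := fun s => s.2.1
  have fx : ∀ s : ↥(stabilizer G o ⊓ P), (s : G) • x = x := fun s => Px s s.2.2
  have fo' : ∀ s : ↥(stabilizer G o ⊓ P), (s : G) • ζ • o = ζ • o := fun s => by rw [← mul_smul, h3 s s.2.2, mul_smul, fo]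
  have oo : o ≠ ζ • o := fun e => hb (e ▸ ob)
  obtain ⟨m, m1, m2⟩ := h.line o (ζ • o)
  obtain ⟨w, w1, w2⟩ := h.point m l
  have mb : m ≠ b := by rintro rfl; exact hb m2
  obtain ⟨u, ⟨ub, fu⟩, uo, ux⟩ := ex3 (S := {y | I y b ∧ ∀ s : ↥(stabilizer G o ⊓ P), (s : G) • y = y}) (by
    have e1 := h.line_mod hS.pg fun s => h.fixL ox (fo s) (fx s) ob xb
    have e2 := (Set.one_lt_ncard_iff (s := {y | I y b ∧ ∀ s : ↥(stabilizer G o ⊓ P), (s : G) • y = y}) (Set.toFinite _)).2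
      ⟨o, x, ⟨ob, fo⟩, ⟨xb, fx⟩, ox⟩
    by_contra e3
    rw [show Set.ncard _ = 1 + 1 from le_antisymm (by omega) e2] at e1
    exact hp.ne_one (Nat.dvd_one.1 (((Nat.ModEq.add_right_cancel' 1 e1).dvd_iff dvd_rfl).1 pn))) o x
  exact h.qd3 fo fo' (fun s => h.fixP (by rintro rfl; exact ol m1) (h.fixL oo (fo s) (fo' s) m1 m2) (Pl s s.2.2) w1 w2) fx fu
    oo (by rintro rfl; exact ol w2) (by rintro rfl; exact h.nmem (Pl ζ h1) ol w2) ux.symm m1 m2 w1
    (fun e => mb (h.eqL ox m1 e ob xb)) fun e => mb (h.eqL uo e m1 ub ob)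

theorem main [FaithfulSMul G X] (h2 : IsMultiplyPretransitive G X 2) :
    ∃ (g : G) (c : X), g ≠ 1 ∧ Ax (fun l x => I x l) g c := by
  have tt := h.tt h2
  obtain ho | he := Nat.even_or_odd n |>.symm
  · obtain ⟨p, r, hp, hn⟩ := h.ppow tt ho
    exact h.cen_pp tt hp hn
  obtain ⟨x⟩ := h.neX
  obtain ⟨P, -, hP⟩ := ex_sy (p := 2) IsPGroup.of_bot (t := x) (bot_le (α := Subgroup G))
  have o : ∀ y, y ≠ x → ∀ k, 2 ^ k ∣ n → 2 ^ k ∣ (orbit P y).ncard := fun y hy k hk => hP.pdvd y (by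
    have := Set.ncard_add_ncard_compl ({x} : Set X)
    rw [Set.ncard_singleton, h.cX] at this
    rw [show orbit (stabilizer G x) y = {x}ᶜ from Set.ext fun c => ⟨by
      rintro ⟨g, rfl⟩ e
      exact hy (smul_left_cancel (g : G) (e.trans g.2.symm)), fun hc => by
      obtain ⟨g, e1, e2⟩ := exists_smul2 h2 hy hc
      exact ⟨⟨g, e2⟩, e1⟩⟩, show ({x}ᶜ : Set X).ncard = n * (n + 1) by linarith]
    exact hk.mul_right _)
  obtain ⟨l⟩ := h.neY
  obtain ⟨y, -, hy⟩ := h.off2 l x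
  obtain ⟨ζ, h1, h3, h4⟩ := ex_cen hP.pg (ne_bot_of (a := y) fun e => by simpa [e] using o y hy 1 (by simpa using he.two_dvd))
  obtain ⟨i, hi⟩ := hP.pg ⟨ζ, h1⟩
  obtain ⟨j, hj, ⟨z, hz⟩, h5⟩ := ex_inv (α := X) (congrArg Subtype.val hi) (exists_smul_ne h3)
  obtain ⟨a, ha⟩ | hq := h.inv2 h5
  · obtain ⟨c, hc⟩ := h.ex_ce ha
    exact ⟨j, c, by rintro rfl; simp at hz, hc⟩
  exfalso
  obtain ⟨r, h'⟩ := h.sub_fix1 hq
  have hn := h.baer h5 hz h'
  obtain ⟨a, m, hm, hr⟩ := Nat.exists_eq_two_pow_mul_odd (n := r) (by have := h'.two; omega)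
  have a0 : a ≠ 0 := by
    rintro rfl
    exact Nat.not_even_iff_odd.2 (by rw [hn, hr]; simpa using hm.pow) he
  have jx : j • x = x := hP.le (zpowers_le.2 h1 hj)
  have := dvd_inv (G := P) (d := 2 ^ (a + 1)) ({y : X | j • y = y} \ {x}) (fun g y hy => ⟨by
    have : (g : G) * j = j * g := zpowers_le.2 (show ζ ∈ centralizer {(g : G)} from mem_centralizer_singleton_iff.2 (h4 g g.2).symm)
      hj g rfl
    show j • (g : G) • y = (g : G) • y
    rw [← mul_smul, ← this, mul_smul, hy.1], fun e => hy.2 (smul_left_cancel (g : G) (e.trans (hP.le g.2).symm))⟩)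
    fun y hy => o y hy.2 _ (by rw [hn, hr, mul_pow, ← pow_mul]; exact (pow_dvd_pow _ (by omega)).mul_right _)
  have e := Set.ncard_sdiff_singleton_add_one (s := {y : X | j • y = y}) jx
  rw [show {y : X | j • y = y}.ncard = _ from h'.cX] at e
  rw [show Set.ncard _ = 2 ^ a * (m * (r + 1)) by rw [← mul_assoc, ← hr]; linarith, pow_succ,
    Nat.mul_dvd_mul_iff_left (by positivity)] at this
  exact Nat.not_even_iff_odd.2 (hm.mul (Even.add_one (hr ▸ (Nat.even_pow.2 ⟨even_two, a0⟩).mul_right m))) (even_iff_two_dvd.2 this)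

theorem on [FaithfulSMul G X] (h2 : IsMultiplyPretransitive G X 2) : ∃ A : X → Subgroup G, ON A := by
  obtain ⟨g, c, g1, hc⟩ := h.main h2
  have := h.faith
  obtain ⟨l⟩ := h.neY
  obtain ⟨x, hx, -⟩ := h.point l l
  obtain ⟨y, hy, -⟩ := h.off2 l x
  have sd : SD G I := ⟨h.inv, h2, h.cX.trans h.cY.symm, x, y, l, hx, hy⟩
  have : (fixingSubgroup (stabilizer G c) {l | I c l}).Normal := ⟨fun n hn k => (mem_fixingSubgroup_iff _).2 fun y hy => by
    rw [mul_smul, mul_smul, (mem_fixingSubgroup_iff _).1 hn (k⁻¹ • y) (h.mem' k⁻¹.2 hy), smul_inv_smul]⟩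
  refine sd.dual.ito (stabilizer G c) (B := c) (fun _ => .rfl) ((h.line c c).imp fun _ h => h.1) (fun l => ?_)
    (fixingSubgroup (stabilizer G c) {l | I c l}) (fun e => g1 (congrArg Subtype.val (e.le
      ((mem_fixingSubgroup_iff _).2 hc : (⟨g, h.dl.ax_fix hc⟩ : stabilizer G c) ∈ _)))) fun k hk => (mem_fixingSubgroup_iff _).1 hk
  obtain ⟨y, hy, e, -⟩ := h.three l c c
  obtain ⟨z, hz, e'⟩ := h.off2 l c
  obtain ⟨k, e1, rfl⟩ := exists_smul2 h2 e.symm e'.symm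
  exact ⟨⟨k, e1⟩, fun e => hz (h.mem e hy)⟩

theorem col_iff [FaithfulSMul G X] {A : X → Subgroup G} (hA : ON A) (xy : x ≠ y) (xl : I x l) (yl : I y l) :
    col A x y z ↔ I z l := by
  have tr : ∀ {x y l}, x ≠ y → I x l → I y l → ∀ {p q k}, p ≠ q → I p k → I q k →
      ∃ g : G, g • x = p ∧ g • y = q ∧ g • l = k := fun xy xl yl p q k pq pk qk => by
    obtain ⟨g, rfl, rfl⟩ := exists_smul2 hA.two xy pq
    exact ⟨g, rfl, rfl, h.eqL pq ((h.inv ..).2 xl) ((h.inv ..).2 yl) pk qk⟩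
  have sup : ∀ {x y l z}, x ≠ y → I x l → I y l → I z l → col A x y z := fun {x y l w} xy xl yl wl => by_contra fun hw => by
    have sub : ∀ {p q k v}, p ≠ q → I p k → I q k → col A p q v → I v k := fun {p q k v} pq pk qk hv => by
      obtain ⟨g, rfl, rfl, rfl⟩ := tr (hA.ncol_ne hw).1 xl wl pq pk qk
      have := hA.col_smul g⁻¹ hv
      simp only [inv_smul_smul] at this
      rw [← smul_inv_smul g v, h.inv]
      by_cases e : x = g⁻¹ • v
      · exact e ▸ xl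
      obtain ⟨a, ha, e1, e2⟩ := hA.transL xy hw this e
      exact e2 ▸ h.mem (h.fixL xy (hA.fix ha) e1 xl yl) wl
    obtain ⟨a, ha, a1, -⟩ := hA.exists_L xy
    have hc : Ax (fun l x => I x l) a x := fun k hk => by
      obtain ⟨u, hu, e, -⟩ := h.three k x x
      exact h.eqL (show a • u ≠ x from fun e' => e (smul_left_cancel a (e'.trans (hA.fix ha).symm))) ((h.inv ..).2 hu)
        (h.mem' (hA.fix ha) hk) (sub e.symm hk hu (hA.col_A ha u)) hk
    obtain ⟨b, hb⟩ := h.dl.ex_ce hc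
    have hB : H16.Ax A {z | a • z = z} := ⟨x, a, ha, a1, rfl⟩
    have xb : I x b := by_contra fun xb => by
      obtain ⟨u, hu, e, -⟩ := h.three b x x
      obtain ⟨v, h1, h2, h3⟩ := hA.third e.symm
      obtain ⟨m, m1, m2⟩ := h.line x u
      exact h3 (h.eqP (show m ≠ b by rintro rfl; exact xb m1) (sub e.symm m1 m2 h1) m2 (by_contra fun e' =>
        a1 (h.one hb hc e' h2 (hA.ax_sub (c := x) (z := v) hB (hA.fix ha) (hb u hu) e.symm h1 :))) hu)
    obtain ⟨k, xk, kb, -⟩ := h.three' x b b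
    obtain ⟨p, pk, px, -⟩ := h.three k x x
    obtain ⟨g, e1, e2, e3⟩ := tr xy xl yl px.symm xk pk
    have qk : I (g • w) k := e3 ▸ (h.inv ..).2 wl
    have pq : p ≠ g • w := fun e => (hA.ncol_ne hw).2 (smul_left_cancel g (e2.trans e))
    obtain ⟨v, hv, h1⟩ := hA.ax_meet hB pq
    have vk := sub pq pk qk h1
    obtain rfl : v = x := by_contra fun e => e (h.eqP kb vk xk (by_contra fun e' => a1 (h.one hb hc e' e hv)) xb)
    have := hA.col_smul g⁻¹ (hA.col_symm px (hA.col_swap pq px h1))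
    rw [← e2, inv_smul_smul, inv_smul_smul, inv_smul_eq_iff.2 e1.symm] at this
    exact hw this
  refine ⟨fun hz => by_contra fun zl => ?_, sup xy xl yl⟩
  obtain ⟨u, hu⟩ := hA.exists_ncol xy
  obtain ⟨k, k1, k2⟩ := h.line z u
  obtain ⟨q, q1, q2⟩ := h.point k l
  have zq : z ≠ q := by rintro rfl; exact zl q2
  exact hu ((hA.col_of xy hz (sup xy xl yl q2) zq).1 (sup zq k1 q1 k2))

end Ac

end H16.OW
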