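import Cfsg.Agent.H8.Brol
import Cfsg.Agent.H18.KpX

/-! Piece C of S4930: with a normal supplement on which `P` has trivial centralizer, restriction is injective on
the characters of `p'`-degree. -/
set_option autoImplicit false
namespace H16.OdC
open H5 H8 Cfsg Subgroup

theorem pC {G : Type*} [Group G] [Finite G] (p : ℕ) [Fact p.Prime] (P : Sylow p G) (H K : Subgroup G) [K.Normal]
    (hC : K ⊓ centralizer ((P : Subgroup G) : Set G) = ⊥) (hs : K ⊔ H = ⊤) :
    (∑ᶠ χ : {χ : IrrCharacter G // ¬ p ∣ charDegree (χ : G → ℂ)}, charDegree (χ.1 : G → ℂ) ^ 2) ≤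
      ∑ᶠ η : {η : IrrCharacter H // ¬ p ∣ charDegree (η : H → ℂ)}, charDegree (η.1 : H → ℂ) ^ 2 := by
  classical
  have := Fintype.ofFinite G
  have := Fintype.ofFinite {χ : IrrCharacter G // ¬ p ∣ charDegree (χ : G → ℂ)}
  have := Fintype.ofFinite {η : IrrCharacter H // ¬ p ∣ charDegree (η : H → ℂ)}
  have hk : ∀ χ : {χ : IrrCharacter G // ¬ p ∣ charDegree (χ : G → ℂ)}, K ≤ charKer (χ.1 : G → ℂ) := fun χ =>
    H118.KpX.le_ker p P K hC _ χ.1.2 χ.2
  let f : {χ : IrrCharacter G // ¬ p ∣ charDegree (χ : G → ℂ)} → {η : IrrCharacter H // ¬ p ∣ charDegree (η : H → ℂ)} :=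
    fun χ => ⟨⟨fun h : H => χ.1.1 h, irr_res_of_ker_sup χ.1.2 (top_le_iff.1 (hs ▸ sup_le_sup_right (hk χ) H))⟩, χ.2⟩
  have hf : Function.Injective f := fun χ ψ e => by
    refine Subtype.ext (Subtype.ext (funext fun g => ?_))
    have hg : g ∈ ((K ⊔ H : Subgroup G) : Set G) := by rw [hs]; trivial
    rw [normal_mul] at hg
    obtain ⟨k, hk', h, hh, rfl⟩ := hg
    have e1 : χ.1.1 h = ψ.1.1 h := congrFun (congrArg (fun x => x.1.1) e) ⟨h, hh⟩
    exact (hk χ hk' h).trans (e1.trans (hk ψ hk' h).symm)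
  rw [finsum_eq_sum_of_fintype, finsum_eq_sum_of_fintype]
  calc ∑ χ : {χ : IrrCharacter G // ¬ p ∣ charDegree (χ : G → ℂ)}, charDegree (χ.1 : G → ℂ) ^ 2
      = ∑ η ∈ Finset.univ.image f, charDegree (η.1 : H → ℂ) ^ 2 := by
        rw [Finset.sum_image fun a _ b _ e => hf e]; rfl
    _ ≤ _ := Finset.sum_le_sum_of_subset (Finset.subset_univ _)

end H16.OdC
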