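import Cfsg.Agent.H16.NF3
import Cfsg.Agent.H10.SL2Sylow
import Mathlib.NumberTheory.LSeries.PrimesInAP
import Mathlib.NumberTheory.SumTwoSquares

/-! Frobenius kernels with a quaternion group in the complement: `exists_sq_add_sq_add_one` (`a² + b² ≡ -1` modulo
an odd number), `Free.odd_isSquare`, `odd_isSquare_of_qData`, `exists_free_Q8`. -/

set_option autoImplicit false
set_option linter.unusedSectionVars false
set_option linter.style.haveILetI false

namespace H16
open Subgroup Module Cfsg H18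

theorem exists_sq_add_sq_add_one {n : ℕ} (hn : Odd n) : ∃ a b : ℤ, (n : ℤ) ∣ a ^ 2 + b ^ 2 + 1 := by
  obtain ⟨k, rfl⟩ := hn
  obtain ⟨q, -, hq, h⟩ := Nat.forall_exists_prime_gt_and_zmodEq 0 (q := 4 * (2 * k + 1))
    (a := 2 * (2 * k + 1) ^ 2 - 1) (by omega) ⟨2 * (2 * k + 1) ^ 2 - 1, -(2 * k + 1) * (4 * k ^ 2 + 4 * k),
      by push_cast; ring⟩
  have := Fact.mk hq
  obtain ⟨c, hc⟩ := h.dvd
  push_cast at hc
  obtain ⟨a, b, hab⟩ := Nat.Prime.sq_add_sq (p := q) (by
    have : (q : ℤ) = 4 * (2 * k ^ 2 + 2 * k - (2 * k + 1) * c) + 1 := by linear_combination -hc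
    omega)
  refine ⟨a, b, 2 * (2 * k + 1) - 4 * c, ?_⟩
  have : (a : ℤ) ^ 2 + b ^ 2 = q := by exact_mod_cast hab
  push_cast
  linear_combination this - hc

theorem Free.odd_isSquare {V G : Type*} [AddCommGroup V] [Finite V] [Group G] {τ : G →* End ℤ V} (h : Free τ)
    {i j : G} (hi : i * i ≠ 1) (h4 : i * i * (i * i) = 1) (hj : j * j = i * i) (hij : j * i * j⁻¹ = i⁻¹) :
    Odd (Nat.card V) ∧ IsSquare (Nat.card V) := by
  have ho : Odd (Nat.card V) := Nat.not_even_iff_odd.1 fun e => by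
    obtain ⟨v, hv⟩ := exists_prime_addOrderOf_dvd_card' (G := V) 2 e.two_dvd
    have := h.two_inj hi h4 v (by rw [← two_nsmul, ← hv, addOrderOf_nsmul_eq_zero])
    simp [this] at hv
  refine ⟨ho, ?_⟩
  rcases subsingleton_or_nontrivial V with _ | _
  · exact ⟨1, by simp⟩
  obtain ⟨a, b, c, hc⟩ := exists_sq_add_sq_add_one ho
  obtain ⟨W, hW, -⟩ := h.exists_half hi h4 hj hij (a := a) (b := b) fun v => by
    rw [eq_neg_iff_add_eq_zero, ← add_one_zsmul, hc, mul_comm, mul_smul, natCast_zsmul, card_nsmul_eq_zero',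
      smul_zero]
  exact ⟨_, by rw [hW, pow_two]⟩

theorem odd_isSquare_of_qData {L : Type*} [Group L] [Finite L] {H : Subgroup L} (hF : IsFrobeniusComplement H)
    {P : Subgroup H} {n : ℕ} {x y : H} (q : H9.QData P (2 * n) x y) :
    Odd (Nat.card (frobeniusKernel H)) ∧ IsSquare (Nat.card (frobeniusKernel H)) := by
  obtain ⟨K, hK, hF⟩ := H21.exists_frob_top hF
  have u1 : x ^ (2 * n) ≠ 1 := fun e => by simpa [e] using q.orderOf_u
  have hab := H23.abel_of_reg_invol (hF.sd.norm (x ^ (2 * n)).2)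
    (hF.reg _ (x ^ (2 * n)).2 fun e => u1 (Subtype.ext e)) (congrArg Subtype.val q.u_mul_u)
  letI : CommGroup K := { (inferInstance : Group K) with mul_comm := hab.comm.is_comm.comm }
  let φ : H →* MulAut K := K.normalizerMonoidHom.comp (inclusion hF.sd.norm)
  let τ : H →* End ℤ (Additive K) :=
    { toFun := fun g => (MonoidHom.toAdditive (φ g).toMonoidHom).toIntLinearMap
      map_one' := by ext v; rw [map_one]; rfl
      map_mul' := fun a b => by ext v; rw [map_mul]; rfl }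
  have h : Free τ := fun g hg v e => by
    have e1 : (g : L) * v.toMul * (g : L)⁻¹ = v.toMul := congrArg (fun v : Additive K => (v.toMul : L)) e
    have : (v.toMul : L) ∈ K ⊓ C1((g : L)) := ⟨v.toMul.2, mem_C1.2 (mul_inv_eq_iff_eq_mul.1 e1).symm⟩
    rw [hF.reg _ g.2 fun e => hg (Subtype.ext e)] at this
    exact Subtype.ext (mem_bot.1 this)
  have e : x ^ n * x ^ n = x ^ (2 * n) := by rw [← pow_add, two_mul]
  rw [← hK]
  exact h.odd_isSquare (i := x ^ n) (j := y) (e ▸ u1) (e ▸ q.u_mul_u) (e ▸ q.ysq) (by rw [← conj_pow, q.inv, inv_pow])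

theorem exists_free_Q8 {n : ℕ} (hn : Odd n) :
    ∃ τ : QuaternionGroup 2 →* End (ZMod n) (Fin 2 → ZMod n), Free τ := by
  obtain ⟨a, b, hab⟩ := exists_sq_add_sq_add_one hn
  have hab : (a : ZMod n) ^ 2 + b ^ 2 = -1 := by
    have := (ZMod.intCast_zmod_eq_zero_iff_dvd _ n).2 hab
    push_cast at this
    linear_combination this
  let i : Matrix.SpecialLinearGroup (Fin 2) (ZMod n) := ⟨!![0, -1; 1, 0], by simp⟩
  let j : Matrix.SpecialLinearGroup (Fin 2) (ZMod n) := ⟨!![a, b; b, -a], by simp; linear_combination -hab⟩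
  have hi : i ^ 2 = -1 := by
    rw [pow_two]; ext r s; rw [Matrix.SpecialLinearGroup.coe_mul]; fin_cases r <;> fin_cases s <;> simp [i]
  have hj : j * j = -1 := by
    ext r s; rw [Matrix.SpecialLinearGroup.coe_mul]; fin_cases r <;> fin_cases s <;> simp [j]
    exacts [by linear_combination hab, by ring, by ring, by linear_combination hab]
  have hij : i * j * i = j := by
    ext r s; simp only [Matrix.SpecialLinearGroup.coe_mul]; fin_cases r <;> fin_cases s <;> simp [i, j]
  have hi4 : i ^ (2 * 2) = 1 := by rw [pow_mul, hi]; simp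
  have hji : j * i * j⁻¹ = i⁻¹ := by
    rw [mul_inv_eq_iff_eq_mul, eq_inv_mul_iff_mul_eq, ← mul_assoc, hij]
  let f := H10.quaternionHom j i hi4 (hj.trans hi.symm) hji
  have key : ∀ v, toRep (Matrix.SpecialLinearGroup.toLin'.comp f) (.a 2) v = v → v = 0 := fun v e => by
    have e1 : f (.a 2) = -1 := hi
    have e2 : -v = v := by simpa [toRep, e1, Matrix.SpecialLinearGroup.toLin'_apply] using e
    have hu : IsUnit (2 : ZMod n) := by
      exact_mod_cast (ZMod.isUnit_iff_coprime 2 n).2 (Nat.coprime_two_left.2 hn)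
    exact hu.smul_eq_zero.1 (by rw [two_smul]; exact add_eq_zero_iff_neg_eq.2 e2)
  refine ⟨toRep (Matrix.SpecialLinearGroup.toLin'.comp f), fun g hg v e => ?_⟩
  rcases (by decide : ∀ g : QuaternionGroup 2, g = 1 ∨ g = .a 2 ∨ g ^ 2 = .a 2) g with h | h | h
  exacts [absurd h hg, key v (h ▸ e), key v (h ▸ pow_fix _ e 2)]

end H16
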