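import Cfsg.Agent.H26.Qw0

/-! Piece `P0b` of S1829: transport of the concrete configuration into the simple QTKE-group. -/

set_option autoImplicit false

namespace H16.QwB
open Subgroup H326.Qw H18
universe u

theorem pg : IsPGroup 2 TT := IsPGroup.of_card (n := 7) card_TT

theorem zc : ∀ t : TT, t * z = z * t := by decide +kernel

theorem jm : ∀ t t' : TT, t ∉ J → t' ∉ J → t' * t⁻¹ ∈ J := by
  rintro ⟨a, b, _ | _⟩ ⟨c, d, _ | _⟩ h h'
  · exact absurd ⟨rfl, rfl, rfl⟩ h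
  · exact absurd ⟨rfl, rfl, rfl⟩ h
  · exact absurd ⟨rfl, rfl, rfl⟩ h'
  · exact ⟨rfl, rfl, rfl⟩

variable {G : Type*} [Group G]

theorem one_of {y : G} {n : ℕ} (hn : Odd n) (h1 : y ^ 128 = 1) (h2 : y ^ n = 1) : y = 1 := by
  have c : Nat.Coprime 128 n := by
    rw [show 128 = 2 ^ 7 from rfl]
    exact Nat.Coprime.pow_left _ (Nat.coprime_two_left.2 hn)
  have := Nat.dvd_gcd (orderOf_dvd_of_pow_eq_one h1) (orderOf_dvd_of_pow_eq_one h2)
  rw [c, Nat.dvd_one, orderOf_eq_one_iff] at this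
  exact this

theorem p128 (ψ : TT →* G) (t : TT) : ψ t ^ 128 = 1 := by
  rw [← map_pow, ← card_TT, pow_card_eq_one', map_one]

theorem loc {ψ : TT →* G} (hi : Function.Injective ψ) {X : Subgroup TT} (h : z1 ∈ X) :
    Cfsg.IsTwoLocal N(X.map ψ) :=
  ⟨_, (pg.to_subgroup X).map ψ, fun e => by
    have : ψ z1 ∈ X.map ψ := ⟨_, h, rfl⟩
    rw [e, mem_bot, ← map_one ψ] at this
    exact absurd (hi this) (by decide), rfl⟩

theorem mpN [Finite G] {ψ : TT →* G} {X : Subgroup TT} {g : G} (h : Mp ψ X X g) : g ∈ N(X.map ψ) :=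
  mem_N_of_finite fun _ ⟨t, ht, e⟩ => let ⟨t', h1, h2⟩ := h t ht; ⟨t', h1, e ▸ h2.symm⟩

theorem kk [Finite G] (hE : Cfsg.IsOfEvenCharacteristic G) {ψ : TT →* G} (hi : Function.Injective ψ)
    (hs : ¬ 2 ∣ ψ.range.index) (R : Subgroup G) (ho : Odd (Nat.card R)) (hz : ∀ y ∈ R, Commute y (ψ z))
    (hJ : ∀ t ∈ J, ∀ y ∈ R, ψ t * y * (ψ t)⁻¹ ∈ R) : R = ⊥ := by
  have hp : IsPGroup 2 ψ.range := by
    rw [MonoidHom.range_eq_map]; exact (pg.to_subgroup ⊤).map ψ
  let S : Sylow 2 G := hp.toSylow hs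
  let H : Subgroup G := N(zpowers (ψ z))
  have hH : Cfsg.IsTwoLocal H := by
    refine ⟨_, ?_, fun e => ?_, rfl⟩
    · rw [← MonoidHom.map_zpowers]; exact (pg.to_subgroup _).map ψ
    · rw [zpowers_eq_bot, ← map_one ψ] at e
      exact absurd (hi e) (by decide)
  have hS : (S : Subgroup G) ≤ H := by
    rintro _ ⟨t, rfl⟩
    exact C1_le_N_zpowers (mem_C1.2 (by rw [← map_mul, ← map_mul, zc]))
  have hR : R ≤ H := fun y hy => C1_le_N_zpowers (mem_C1.2 (hz y hy).eq)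
  have hc := hE H hH ⟨S, hS⟩
  have hq : IsPGroup 2 (Cfsg.pCore 2 H) := Sylow.sSup_of_normal _ (fun _ h => h.2) fun _ h => h.1
  have hQ : ∀ q ∈ Cfsg.pCore 2 H, ∃ t, ψ t = (q : G) := fun q h =>
    hq.le_sylow_of_normal (S.subtype hS) h
  have hr : ∀ y ∈ R, y ^ Nat.card R = 1 := fun y hy =>
    congrArg Subtype.val (pow_card_eq_one' (x := (⟨y, hy⟩ : R)))
  have h1 : ∀ q ∈ Cfsg.pCore 2 H, (q : G) ∈ R → (q : G) = 1 := fun q h h' => by
    obtain ⟨t, e⟩ := hQ q h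
    exact one_of ho (e ▸ p128 ψ t) (hr _ h')
  have n := Cfsg.pCore_normal 2 H
  have h2 : ∀ r : H, (r : G) ∈ R → ∀ q ∈ Cfsg.pCore 2 H, ∀ t ∈ J, ψ t = (q : G) → r * q * r⁻¹ = q :=
    fun r hr' q h t ht e => by
      have := h1 (r * q * r⁻¹ * q⁻¹) (mul_mem (n.conj_mem q h r) (inv_mem h)) (by
        have := mul_mem hr' (hJ t ht _ (inv_mem hr'))
        simpa [e, mul_assoc] using this)
      exact mul_inv_eq_one.1 (Subtype.ext this)
  refine (eq_bot_iff_forall _).2 fun y hy => h1 ⟨y, hR hy⟩ (hc fun q h => ?_) hy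
  set r : H := ⟨y, hR hy⟩
  have hy' : (r : G) ∈ R := hy
  suffices r * q * r⁻¹ = q by rw [mul_inv_eq_iff_eq_mul] at this; exact this.symm
  obtain ⟨t, e⟩ := hQ q h
  by_cases ht : t ∈ J
  · exact h2 r hy' q h t ht e
  have h' := n.conj_mem q h r
  obtain ⟨t', e'⟩ := hQ _ h'
  by_cases ht' : t' ∈ J
  · have := h2 r⁻¹ (inv_mem hy') _ h' t' ht' e'
    rw [← this]; group
  have hj := h2 r hy' (r * q * r⁻¹ * q⁻¹) (mul_mem h' (inv_mem h)) _ (jm t t' ht ht')
    (by rw [map_mul, map_inv, e, e']; rfl)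
  have e2 : ((r * q * r⁻¹ * q⁻¹ : H) : G) ^ 128 = 1 := by
    have := p128 ψ (t' * t⁻¹)
    rwa [map_mul, map_inv, e, e'] at this
  generalize hj' : r * q * r⁻¹ * q⁻¹ = j at hj e2
  have e3 : r * q * r⁻¹ = j * q := by rw [← hj']; group
  have cj : Commute r j := mul_inv_eq_iff_eq_mul.1 hj
  have e4 : ∀ k : ℕ, r ^ k * q * (r ^ k)⁻¹ = j ^ k * q := by
    intro k
    induction k with
    | zero => simp
    | succ k ih =>
      have c := (cj.pow_right k).eq
      calc r ^ (k + 1) * q * (r ^ (k + 1))⁻¹ = r * (r ^ k * q * (r ^ k)⁻¹) * r⁻¹ := by rw [pow_succ']; group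
        _ = r * j ^ k * q * r⁻¹ := by rw [ih]; simp only [mul_assoc]
        _ = j ^ k * (r * q * r⁻¹) := by rw [c]; simp only [mul_assoc]
        _ = j ^ (k + 1) * q := by rw [e3, pow_succ, mul_assoc]
  have e5 := e4 (Nat.card R)
  have e6 : r ^ Nat.card R = 1 := Subtype.ext (hr y hy)
  rw [e6, one_mul, inv_one, mul_one, eq_comm, mul_eq_right] at e5
  have : j = 1 := Subtype.ext (one_of ho e2 (by simpa using congrArg Subtype.val e5))
  rw [e3, this, one_mul]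

theorem p0b (h : P0a) : P0b.{u} := by
  rintro G _ _ _ - hQ T M ⟨hM, hT⟩ ⟨e⟩
  obtain ⟨φ, x, c, hA⟩ := h
  let f : Cfsg.blockStabilizerS4wr2 →* G := M.subtype.comp e.symm.toMonoidHom
  have hf : Function.Injective f := M.subtype_injective.comp e.symm.injective
  have hr : f.range = M := by
    ext g
    exact ⟨fun ⟨w, h⟩ => h ▸ (e.symm w).2, fun h => ⟨e ⟨g, h⟩, by simp [f]⟩⟩
  have hi : Function.Injective (f.comp φ) := hf.comp c.inj
  have mp : ∀ X Y w, Mp (f.comp φ) X Y (f w) ↔ Mp φ X Y w := fun X Y w =>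
    forall₂_congr fun t _ => exists_congr fun t' => and_congr_right fun _ => by
      simp only [MonoidHom.comp_apply, ← map_mul, ← map_inv, hf.eq_iff]
  have hN : ∀ g, Mp (f.comp φ) A A g → ∃ w, f w = g := fun g hg => by
    have : N(A.map (f.comp φ)) = M := hM.2 _ (loc hi (by decide)) (by
      rw [← hr]
      rintro _ ⟨w, rfl⟩
      exact mpN ((mp _ _ w).2 (hA w)))
    have h2 := mpN hg
    rwa [this, ← hr] at h2
  have hs : ¬ 2 ∣ (f.comp φ).range.index := by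
    rw [MonoidHom.range_comp, index_map_of_injective _ hf, hr, Nat.prime_two.dvd_mul]
    rintro (h | h)
    · exact c.syl h
    · exact T.not_dvd_index (h.trans (index_dvd_of_le hT))
  refine ⟨f.comp φ, f x, ⟨hi, hs, ?_, ?_, ?_, ?_, fun t ht => (c.xD t ht).map f, ?_, fun g hg => ?_,
    fun g hg hg' => ?_⟩, fun H hH => ?_, kk hQ.2.2 hi hs, fun R h1 h2 h3 => ?_⟩
  · rw [← map_pow, c.x3, map_one]
  · simpa using congrArg f c.xz
  · simpa using congrArg f c.xv
  · simpa using congrArg f c.xu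
  · simpa using c.xx.map f
  · obtain ⟨w, rfl⟩ := hN g hg
    intro h
    exact c.nA w (hA w) (hf (by simpa using h))
  · obtain ⟨w, rfl⟩ := hN g hg
    obtain ⟨t, rfl⟩ := c.nAB w (hA w) ((mp _ _ w).1 hg')
    exact ⟨t, rfl⟩
  · rcases (normal_of_index_eq_two hH).eq_bot_or_eq_top with rfl | rfl
    · have := Nat.card_le_card_of_injective _ hi
      rw [index_bot] at hH
      rw [card_TT, hH] at this
      omega
    · simp at hH
  · have hl : R ≤ N(V1.map (f.comp φ)) := fun y hy => mpN (h1 y hy)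
    have := hQ.1 3 Nat.prime_three (by decide) _ (loc hi (X := V1) (by decide)) (R.subgroupOf _)
      ⟨⟨fun a b => Subtype.ext (Subtype.ext (h2 _ a.2 _ b.2))⟩⟩ (fun a ha => Subtype.ext (h3 _ ha))
    rw [Nat.card_congr (subgroupOfEquivOfLe hl).toEquiv] at this
    omega

end H16.QwB
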