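import Mathlib.LinearAlgebra.Matrix.GeneralLinearGroup.Defs
import Mathlib.LinearAlgebra.Matrix.Notation
import Mathlib.SetTheory.Cardinal.Finite
import Mathlib.Data.ZMod.Basic

/-! Certificates for subgroups of `GL(2, F)` acting regularly on the non-zero vectors (`regular_of_cert`). -/

set_option autoImplicit false
open Matrix

namespace H16

theorem regular_of_cert {F : Type*} [CommRing F] [Nontrivial F] [Fintype F] (S : Set (GL (Fin 2) F))
    (f f' : F → F → F) (d : F → F → ℕ) (h1 : f 1 0 = 0 ∧ f' 1 0 = 1)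
    (hS : ∀ g ∈ S, ∀ x y, ¬ (x = 0 ∧ y = 0) →
      g.1 0 0 * f x y + g.1 0 1 * f' x y = f (g.1 0 0 * x + g.1 0 1 * y) (g.1 1 0 * x + g.1 1 1 * y) ∧
      g.1 1 0 * f x y + g.1 1 1 * f' x y = f' (g.1 0 0 * x + g.1 0 1 * y) (g.1 1 0 * x + g.1 1 1 * y))
    (hd : ∀ x y, ¬ (x = 0 ∧ y = 0) → (x = 1 ∧ y = 0) ∨
      ∃ g ∈ S, d (g.1 0 0 * x + g.1 0 1 * y) (g.1 1 0 * x + g.1 1 1 * y) < d x y) :
    Nat.card (Subgroup.closure S) = Fintype.card F ^ 2 - 1 ∧ ∀ v w : Fin 2 → F, v ≠ 0 → w ≠ 0 →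
      ∃! h : Subgroup.closure S, ((h : GL (Fin 2) F) : Matrix (Fin 2) (Fin 2) F).mulVec v = w := by
  classical
  have nz : ∀ v : Fin 2 → F, v ≠ 0 → ¬ (v 0 = 0 ∧ v 1 = 0) := fun v hv h => hv (by ext i; fin_cases i <;> simp [h])
  have mv : ∀ (g : GL (Fin 2) F) (v : Fin 2 → F) i, (g.1 *ᵥ v) i = g.1 i 0 * v 0 + g.1 i 1 * v 1 := fun g v i => by
    simp [mulVec, dotProduct]
  have mm : ∀ (g h : GL (Fin 2) F) v, (g * h).1 *ᵥ v = g.1 *ᵥ h.1 *ᵥ v := fun g h v => by simp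
  have iv : ∀ (g : GL (Fin 2) F) v, g⁻¹.1 *ᵥ g.1 *ᵥ v = v := fun g v => by rw [← mm]; simp
  have iv' : ∀ (g : GL (Fin 2) F) v, g.1 *ᵥ g⁻¹.1 *ᵥ v = v := fun g v => by rw [← mm]; simp
  have ne : ∀ (g : GL (Fin 2) F) v, v ≠ 0 → g.1 *ᵥ v ≠ 0 := fun g v hv e => hv (by rw [← iv g v, e, mulVec_zero])
  let W : (Fin 2 → F) → Fin 2 → F := fun v => ![f (v 0) (v 1), f' (v 0) (v 1)]
  have hW : ∀ g ∈ Subgroup.closure S, ∀ v ≠ 0, g.1 *ᵥ W v = W (g.1 *ᵥ v) := fun g hg => by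
    induction hg using Subgroup.closure_induction with
    | mem g hg =>
      intro v hv
      ext i
      have := hS g hg _ _ (nz v hv)
      fin_cases i <;> simp [mv, W, this]
    | one => simp
    | mul g h _ _ a b => exact fun v hv => by rw [mm, b v hv, a _ (ne h v hv), mm]
    | inv g _ a => exact fun v hv => by conv_lhs => rw [← iv' g v, ← a _ (ne _ v hv), iv]
  have e0 : (![1, 0] : Fin 2 → F) ≠ 0 := fun e => by simpa using congrFun e 0
  have st : ∀ g ∈ Subgroup.closure S, g.1 *ᵥ ![1, 0] = ![1, 0] → g = 1 := fun g hg e => by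
    have e' := hW g hg _ e0
    rw [e] at e'
    ext i j
    have a := congrFun e i
    have b := congrFun e' i
    fin_cases i <;> fin_cases j <;> simp_all [W]
  have tr : ∀ n (v : Fin 2 → F), d (v 0) (v 1) = n → v ≠ 0 → ∃ g ∈ Subgroup.closure S, g.1 *ᵥ v = ![1, 0] := fun n => by
    induction n using Nat.strong_induction_on with
    | _ n ih =>
      rintro v rfl hv
      rcases hd _ _ (nz v hv) with h | ⟨g, hg, h⟩
      · exact ⟨1, one_mem _, by ext i; fin_cases i <;> simp [h]⟩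
      · obtain ⟨u, hu, e⟩ := ih _ h (g.1 *ᵥ v) (by rw [mv, mv]) (ne g v hv)
        exact ⟨u * g, mul_mem hu (Subgroup.subset_closure hg), by rw [mm, e]⟩
  have reg : ∀ v w : Fin 2 → F, v ≠ 0 → w ≠ 0 →
      ∃! h : Subgroup.closure S, ((h : GL (Fin 2) F) : Matrix (Fin 2) (Fin 2) F).mulVec v = w := fun v w hv hw => by
    obtain ⟨g, hg, e⟩ := tr _ v rfl hv
    obtain ⟨u, hu, e'⟩ := tr _ w rfl hw
    refine ⟨⟨u⁻¹ * g, mul_mem (inv_mem hu) hg⟩, by simp only [mm, e]; rw [← e', iv], fun h e'' => Subtype.ext ?_⟩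
    have := st (u * h * g⁻¹) (mul_mem (mul_mem hu h.2) (inv_mem hg)) (by
      conv_lhs => rw [mm, ← e, iv, mm, e'', e'])
    rw [mul_inv_eq_one] at this
    exact eq_inv_mul_of_mul_eq this
  refine ⟨?_, reg⟩
  rw [Nat.card_eq_of_bijective (fun h : Subgroup.closure S => (⟨h.1.1 *ᵥ ![1, 0], ne _ _ e0⟩ : {v : Fin 2 → F // v ≠ 0}))
    ((Function.bijective_iff_existsUnique _).2 fun w => by simpa [Subtype.ext_iff] using reg _ w e0 w.2)]
  simp [Fintype.card_subtype_compl]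

/-- table lookup -/
def tab (p T : ℕ) (x y : ZMod p) : ℕ := T / 4096 ^ (x.val * p + y.val) % 4096

end H16
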