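import Cfsg.Agent.H16.Basic
import Mathlib.Data.Fintype.CardEmbedding

/-! Small Schreier certificates: `Sift.ev g w` (value of a word), `Sift.Kl g k` (generated by the first `k` letters),
`Sift.level` (one level of a stabiliser chain from a transversal and words for the Schreier generators),
`sharp_of_card` (a trivial tuple stabiliser and the right order give sharp `k`-transitivity). -/

set_option autoImplicit false

namespace H16
open Subgroup MulAction

namespace Sift
variable {G Ω : Type*} [Group G] [MulAction G Ω]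

/-- the value of a word -/
def ev (g : ℕ → G) : List ℕ → G
  | [] => 1
  | a :: w => g a * ev g w

/-- the subgroup generated by the first `k` letters -/
def Kl (g : ℕ → G) (k : ℕ) : Subgroup G := closure (g '' Set.Iio k)

theorem ev_mem (g : ℕ → G) {k : ℕ} : ∀ {w : List ℕ}, (∀ a ∈ w, a < k) → ev g w ∈ Kl g k
  | [], _ => one_mem _
  | a :: w, h => mul_mem (subset_closure ⟨a, h a (by simp), rfl⟩) (ev_mem g fun b hb => h b (by simp [hb]))

theorem Kl_zero (g : ℕ → G) : Kl g 0 = ⊥ := by simp [Kl]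

theorem level [Finite G] [DecidableEq Ω] (g : ℕ → G) {k k' : ℕ} (hk : k' ≤ k) (a : Ω) (O : Finset Ω)
    (t : Ω → List ℕ) (c : ℕ → Ω → List ℕ) (ha : a ∈ O ∧ t a = []) (h1 : ∀ j < k', g j • a = a)
    (h2 : ∀ b ∈ O, (∀ i ∈ t b, i < k) ∧ ev g (t b) • a = b)
    (h3 : ∀ j < k, ∀ b ∈ O, g j • b ∈ O ∧ (∀ i ∈ c j b, i < k') ∧
      g j * ev g (t b) = ev g (t (g j • b)) * ev g (c j b)) :
    Kl g k ⊓ stabilizer G a = Kl g k' ∧ Nat.card (Kl g k) = O.card * Nat.card (Kl g k') := by
  have key : ∀ x ∈ Kl g k, ∀ b ∈ O, x • b ∈ O ∧ (ev g (t (x • b)))⁻¹ * (x * ev g (t b)) ∈ Kl g k' := fun x hx => by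
    rw [Kl, ← mem_toSubmonoid, closure_toSubmonoid_of_finite] at hx
    induction hx using Submonoid.closure_induction_left with
    | one => intro b hb; simpa using hb
    | mul_left s hs y _ ih =>
      obtain ⟨j, hj, rfl⟩ := hs
      intro b hb
      obtain ⟨e1, e2⟩ := ih b hb
      obtain ⟨e3, e4, e5⟩ := h3 j hj _ e1
      rw [mul_smul]
      refine ⟨e3, ?_⟩
      have := mul_mem (ev_mem g e4) e2
      rwa [← inv_mul_cancel_left (ev g (t (g j • y • b))) (ev g (c j (y • b))), ← e5, mul_assoc, mul_assoc,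
        mul_inv_cancel_left, ← mul_assoc (g j)] at this
  have e : Kl g k ⊓ stabilizer G a = Kl g k' := by
    refine le_antisymm (fun x hx => ?_) (le_inf (closure_mono (Set.image_mono (Set.Iio_subset_Iio hk)))
      ((closure_le _).2 (by rintro _ ⟨j, hj, rfl⟩; exact h1 j hj)))
    have := (key x hx.1 a ha.1).2
    rw [show x • a = a from hx.2, ha.2] at this
    simpa [ev] using this
  refine ⟨e, ?_⟩
  have ho : orbit (Kl g k) a = O := Set.ext fun b =>
    ⟨by rintro ⟨x, rfl⟩; exact (key x x.2 a ha.1).1, fun hb => ⟨⟨_, ev_mem g (h2 b hb).1⟩, (h2 b hb).2⟩⟩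
  rw [← card_orbit_mul_card_stabilizer (G := Kl g k) a, ho, ← e, inf_comm,
    ← Nat.card_congr (subgroupOfEquivOfLe inf_le_right).toEquiv, inf_subgroupOf_right]
  simp only [Finset.coe_sort_coe, Nat.card_eq_fintype_card, Fintype.card_coe]
  rfl

end Sift

theorem sharp_of_card {G Ω : Type*} [Group G] [MulAction G Ω] [Finite Ω] {k : ℕ} (x : Fin k ↪ Ω)
    (hx : stabilizer G x = ⊥) (hc : Nat.card G = (Nat.card Ω).descFactorial k) :
    IsMultiplyPretransitive G Ω k ∧ ∀ y : Fin k ↪ Ω, stabilizer G y = ⊥ := by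
  classical
  have := Fintype.ofFinite Ω
  have ho : orbit G x = Set.univ := by
    refine Set.eq_of_subset_of_ncard_le (Set.subset_univ _) ?_
    rw [← index_stabilizer, hx, index_bot, hc, Set.ncard_univ]
    simp
  have ht : IsPretransitive G (Fin k ↪ Ω) := (isPretransitive_iff_orbit_eq_univ x).2 ho
  refine ⟨ht, fun y => ?_⟩
  obtain ⟨g, rfl⟩ := exists_smul_eq G x y
  rw [stabilizer_smul_eq_stabilizer_map_conj, hx, Subgroup.map_bot]

end H16
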