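import Cfsg.Agent.H24.CharLemmas
import Cfsg.Agent.H5.Equiv

/-! Characters realizable over a subfield `K` of `ℂ` (`RK K χ`): closure under sums, induction of linear characters
(`rk_ind`), cancellation (`RK.cancel`), matrices with entries in `K` (`RK.exists`). -/

set_option autoImplicit false

namespace H16
open Cfsg H5 Module Representation

variable {G : Type*} [Group G] {K : Subfield ℂ} {χ α β : G → ℂ}

/-- `χ` is the character of a representation over `K` -/
def RK (K : Subfield ℂ) (χ : G → ℂ) : Prop :=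
  ∃ (V : Type) (_ : AddCommGroup V) (_ : Module K V) (_ : FiniteDimensional K V) (τ : Representation K G V),
    ∀ g, (τ.character g : ℂ) = χ g

theorem RK.add (h : RK K α) (h' : RK K β) : RK K (α + β) := by
  obtain ⟨V, _, _, _, τ, e⟩ := h
  obtain ⟨W, _, _, _, σ, e'⟩ := h'
  exact ⟨_, _, _, inferInstance, τ.prod σ, fun g => by rw [char_prod]; simp [e, e']⟩

theorem rk_mat {ι : Type} [Fintype ι] [DecidableEq ι] (M : G → Matrix ι ι ℂ) (h1 : M 1 = 1)
    (hm : ∀ g h, M (g * h) = M g * M h) (hK : ∀ g i j, M g i j ∈ K) : RK K fun g => (M g).trace := by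
  let M' : G → Matrix ι ι K := fun g => Matrix.of fun i j => ⟨M g i j, hK g i j⟩
  have e : ∀ g, K.subtype.mapMatrix (M' g) = M g := fun g => rfl
  have inj : Function.Injective (K.subtype.mapMatrix : Matrix ι ι K →+* _) :=
    Matrix.map_injective K.subtype_injective
  let N : G →* Matrix ι ι K :=
    ⟨⟨M', inj (by rw [e, h1, map_one])⟩, fun g h => inj (by rw [map_mul, e, e, e, hm])⟩
  refine ⟨ι → K, _, _, inferInstance, (Matrix.toLinAlgEquiv' (R := K) (n := ι)).toMonoidHom.comp N, fun g => ?_⟩
  change (LinearMap.trace K _ (Matrix.toLin' (M' g)) : ℂ) = _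
  rw [Matrix.trace_toLin'_eq]
  simp [Matrix.trace, M']

theorem rk_zero : RK K (0 : G → ℂ) := by
  simpa [Pi.zero_def] using rk_mat (K := K) (G := G) (ι := Fin 0) (fun _ => 1) rfl (fun _ _ => (mul_one _).symm) fun _ i => i.elim0

theorem RK.nsmul (h : RK K α) (n : ℕ) : RK K (n • α) := by
  induction n with
  | zero => rw [zero_nsmul]; exact rk_zero
  | succ n ih => rw [succ_nsmul]; exact ih.add h

theorem RK.exists (h : RK K χ) : ∃ (n : ℕ) (σ : Representation ℂ G (Fin n → ℂ)), σ.character = χ ∧
    ∀ g i j, LinearMap.toMatrix' (σ g) i j ∈ K := by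
  obtain ⟨V, _, _, _, τ, e⟩ := h
  let b := finBasis K V
  let N : G →* Matrix _ _ ℂ :=
    K.subtype.mapMatrix.toMonoidHom.comp ((LinearMap.toMatrixAlgEquiv b).toMonoidHom.comp τ)
  refine ⟨_, (Matrix.toLinAlgEquiv' (R := ℂ)).toMonoidHom.comp N, funext fun g => ?_, fun g i j => ?_⟩
  · change LinearMap.trace ℂ _ (Matrix.toLin' (N g)) = _
    rw [Matrix.trace_toLin'_eq, ← e, character, LinearMap.trace_eq_matrix_trace K b]
    exact (AddMonoidHom.map_trace K.subtype _).symm
  · change LinearMap.toMatrix' (Matrix.toLin' (N g)) i j ∈ K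
    rw [LinearMap.toMatrix'_toLin']
    exact SetLike.coe_mem _

theorem rk_ind [Fintype G] (H : Subgroup G) (l : H →* ℂˣ) (hK : ∀ x, (l x : ℂ) ∈ K) :
    RK K (indFun H fun x => (l x : ℂ)) := by
  classical
  have : Finite (G ⧸ H) := inferInstance
  let e := Finite.equivFin (G ⧸ H)
  let r : Fin _ → G := fun i => (e.symm i).out
  have hr : ∀ x : G, ∃ i, (r i)⁻¹ * x ∈ H := fun x =>
    ⟨e x, QuotientGroup.eq.1 (by simp [r])⟩
  have hr' : ∀ i j, (r i)⁻¹ * r j ∈ H → i = j := fun i j h =>
    e.symm.injective (by simpa [r] using QuotientGroup.eq.2 h)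
  set θ := extendByZero H fun x => (l x : ℂ) with hθ
  have hm : ∀ x, ∀ y ∈ H, θ (x * y) = θ x * θ y := fun x y hy => by
    by_cases hx : x ∈ H
    · rw [hθ, extendByZero_of_mem _ _ hx, extendByZero_of_mem _ _ hy, extendByZero_of_mem _ _ (mul_mem hx hy),
        ← Units.val_mul, ← map_mul]; rfl
    · rw [hθ, extendByZero_of_not_mem _ _ hx, extendByZero_of_not_mem _ _ (by rwa [H.mul_mem_cancel_right hy]),
        zero_mul]
  have := rk_mat (K := K) (fun g => Matrix.of fun i j => θ ((r i)⁻¹ * g * r j)) ?_ (fun g h => ?_) fun g i j => ?_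
  · convert this using 1
    ext g
    rw [H24.indFun_eq_sum_reps H (fun a b => by simp) r hr hr']
    rfl
  · ext i j
    rw [Matrix.of_apply, mul_one, Matrix.one_apply]
    split_ifs with h
    · rw [h, inv_mul_cancel, hθ, extendByZero_of_mem _ _ (one_mem H)]
      exact congrArg Units.val (map_one l)
    · exact extendByZero_of_not_mem _ _ fun h' => h (hr' i j h')
  · ext i j
    obtain ⟨k, hk⟩ := hr (h * r j)
    rw [Matrix.mul_apply, Finset.sum_eq_single k _ (by simp)]
    · simp only [Matrix.of_apply]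
      rw [← hm _ _ (by rwa [mul_assoc])]
      congr 1; group
    · intro m _ hm
      simp only [Matrix.of_apply]
      rw [hθ, extendByZero_of_not_mem H _ (g := (r m)⁻¹ * h * r j), mul_zero]
      exact fun h' => hm (hr' m k (by simpa [mul_assoc] using mul_mem h' (inv_mem hk)))
  · rw [Matrix.of_apply, hθ, extendByZero_apply]
    split_ifs
    exacts [hK _, zero_mem K]

theorem RK.cancel [Finite G] (hχ : IsCharacter G χ) (hα : RK K α) (hβ : RK K β) (h : χ + α = β) : RK K χ := by
  have := Fintype.ofFinite G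
  have c0 : (Nat.card G : K) ≠ 0 := Nat.cast_ne_zero.2 Nat.card_pos.ne'
  have : NeZero (Nat.card G : K) := ⟨c0⟩
  have := invertibleOfNonzero c0
  have := invertibleOfNonzero (card_ne_zero_complex (G := G))
  obtain ⟨n, ρ, rfl⟩ := hχ
  obtain ⟨V, _, _, _, τ, e⟩ := hα
  subst h
  obtain rfl : α = fun g => (τ.character g : ℂ) := (funext e).symm
  refine rep_induction (k := K) (G := G) (P := fun V _ _ _ τ => RK K (ρ.character + fun g => (τ.character g : ℂ)) →
    RK K ρ.character) (fun V _ _ _ τ _ h => ?_) (fun V _ _ _ τ U U' hU hi ih h => ?_) V τ hβ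
  · convert h using 1
    ext g
    simp [character, Subsingleton.elim (τ g) 0]
  obtain ⟨W, _, _, _, σ, e⟩ := h
  obtain ⟨m, u, hu, -⟩ := RK.exists (K := K) ⟨_, _, _, inferInstance, U.toRepresentation, fun _ => rfl⟩
  have h1 := card_inv_mul_sum_char_mul_char_eq_finrank u ρ
  have h2 := congrArg K.subtype (card_inv_mul_sum_char_mul_char_eq_finrank U.toRepresentation τ)
  have h3 := congrArg K.subtype (card_inv_mul_sum_char_mul_char_eq_finrank U.toRepresentation σ)
  simp only [map_mul, map_sum, map_inv₀, map_natCast, Subfield.coe_subtype, e, Pi.add_apply, add_mul,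
    Finset.sum_add_distrib, mul_add] at h2 h3
  rw [hu] at h1
  rw [h1, h2] at h3
  have := nontrivial_of_isIrreducible U.toRepresentation
  have : Module.Finite K (IntertwiningMap U.toRepresentation τ) :=
    Module.Finite.equiv (invariantsEquivIntertwiningMap _ _)
  have h4 : 0 < finrank K (IntertwiningMap U.toRepresentation τ) := by
    refine finrank_pos_iff.2 ⟨⟨U.toSubmodule.subtype, fun _ => rfl⟩, 0, fun h => ?_⟩
    obtain ⟨v, hv⟩ := exists_ne (0 : U.toSubmodule)
    exact hv (Subtype.ext (congrArg (fun f : IntertwiningMap U.toRepresentation τ => f v) h))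
  have := nontrivial_of_finrank_pos (R := K) (M := IntertwiningMap U.toRepresentation σ) (by
    norm_cast at h3; omega)
  obtain ⟨f, hf⟩ := exists_ne (0 : IntertwiningMap U.toRepresentation σ)
  have inj : Function.Injective f.toLinearMap := by
    rw [← LinearMap.ker_eq_bot]
    refine (((isIrreducible_iff _).1 hi).2 _ fun g v hv => f.ker.apply_mem_toSubmodule g hv).resolve_right fun h => hf ?_
    exact IntertwiningMap.ext (LinearMap.ker_eq_top.1 h)
  obtain ⟨R, hR⟩ := exists_compl f.range
  have e1 : U.toRepresentation.character = f.range.toRepresentation.character :=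
    char_iso (Representation.Equiv.mk (LinearEquiv.ofInjective f.toLinearMap inj) fun g =>
      LinearMap.ext fun v => Subtype.ext (IntertwiningMap.isIntertwining _ _ f g v))
  refine ih ⟨_, _, _, inferInstance, R.toRepresentation, fun g => ?_⟩
  have := e g
  rw [char_eq_add_of_isCompl _ _ hR, char_eq_add_of_isCompl _ _ hU, ← e1] at this
  simp only [Pi.add_apply, Subfield.coe_add] at this ⊢
  linear_combination this

theorem rk_list [Fintype G] (l : List ((E : Subgroup G) × ((E →* ℂˣ) × ℤ)))
    (hK : ∀ (E : Subgroup G) (f : E →* ℂˣ) x, (f x : ℂ) ∈ K) : ∃ α β, RK K α ∧ RK K β ∧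
    (l.map fun t => (t.2.2 : ℂ) • indFun t.1 (fun e => (t.2.1 e : ℂ))).sum + α = β := by
  induction l with
  | nil => exact ⟨0, 0, rk_zero, rk_zero, by simp⟩
  | cons t l ih =>
    obtain ⟨α, β, a, b, e⟩ := ih
    have := rk_ind t.1 t.2.1 (hK _ _)
    refine ⟨α + _, β + _, a.add (this.nsmul (-t.2.2).toNat), b.add (this.nsmul t.2.2.toNat), ?_⟩
    rw [← e, List.map_cons, List.sum_cons, ← Nat.cast_smul_eq_nsmul ℂ, ← Nat.cast_smul_eq_nsmul ℂ,
      show (t.2.2 : ℂ) = (t.2.2.toNat : ℂ) - ((-t.2.2).toNat : ℂ) by exact_mod_cast (Int.toNat_sub_toNat_neg _).symm,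
      sub_smul]
    abel

end H16
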